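import Cfsg.Agent.BS.R3
import Cfsg.Agent.L0.Alt3

/-! Involution centralizers that are double covers of alternating groups: lifts. -/

set_option autoImplicit false
set_option linter.unusedSectionVars false

namespace Cfsg.H2.DC

open Subgroup Cfsg.L0 Cfsg.H8 Cfsg.FT Cfsg.BS Cfsg.BS.R Equiv Equiv.Perm
open scoped commutatorElement

section perm
variable {Ω : Type} [Fintype Ω] [DecidableEq Ω] {σ τ π ρ : Perm Ω} {p : ℕ}

theorem isConj_of_prime (hp : p.Prime) (h1 : σ ^ p = 1) (h2 : τ ^ p = 1)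
    (h : σ.support.card = τ.support.card) : IsConj σ τ := by
  have := Fact.mk hp
  have e1 := cycleType_of_pow_prime_eq_one h1
  have e2 := cycleType_of_pow_prime_eq_one h2
  rw [← sum_cycleType, ← sum_cycleType, e1, e2, Multiset.sum_replicate, Multiset.sum_replicate,
    smul_eq_mul, smul_eq_mul] at h
  rw [isConj_iff_cycleType_eq, e1, e2, Nat.eq_of_mul_eq_mul_right hp.pos h]

theorem even_conj (h : IsConj σ τ) (h1 : sign ρ = -1) (h2 : ρ * σ = σ * ρ) :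
    ∃ π : Perm Ω, sign π = 1 ∧ π * σ * π⁻¹ = τ := by
  obtain ⟨π, e⟩ := isConj_iff.1 h
  rcases Int.units_eq_one_or (sign π) with q | q
  · exact ⟨π, q, e⟩
  · exact ⟨π * ρ, by simp [q, h1], by rw [mul_assoc π, h2, ← e]; group⟩

theorem conj2 (h1 : σ * σ = 1) (h2 : τ * τ = 1) (h : σ.support.card = τ.support.card) :
    ∃ π : Perm Ω, sign π = 1 ∧ π * σ * π⁻¹ = τ := by
  have c := isConj_of_prime Nat.prime_two (by rwa [sq]) (by rwa [sq]) h
  by_cases e : σ = 1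
  · exact ⟨1, by simp, by rw [e] at c; simp [e, isConj_one_right.1 c]⟩
  obtain ⟨a, ha⟩ : ∃ a, σ a ≠ a := by
    by_contra q; push Not at q; exact e (Equiv.ext q)
  refine even_conj c (sign_swap ha.symm) ?_
  have : σ (σ a) = a := by rw [← Perm.mul_apply, h1, Perm.one_apply]
  rw [mul_swap_eq_swap_mul, this, swap_comm]

theorem conj3 (h1 : σ ^ 3 = 1) (h2 : τ ^ 3 = 1) (h : σ.support.card = τ.support.card)
    (h3 : σ.support.card + 2 ≤ Fintype.card Ω) : ∃ π : Perm Ω, sign π = 1 ∧ π * σ * π⁻¹ = τ := by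
  obtain ⟨a, ha, b, hb, ab⟩ := Finset.one_lt_card.1 (show 1 < σ.supportᶜ.card by
    rw [Finset.card_compl]; omega)
  rw [Finset.mem_compl, notMem_support] at ha hb
  exact even_conj (isConj_of_prime Nat.prime_three h1 h2 h) (sign_swap ab)
    (by rw [mul_swap_eq_swap_mul, ha, hb])

theorem dvd_inter (hp : p.Prime) (h1 : σ ^ p = 1) (hc : π * σ = σ * π) :
    p ∣ (σ.support ∩ π.support).card := by
  by_cases e : σ = 1
  · simp [e]
  have := Fact.mk hp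
  have ho := orderOf_eq_prime h1 e
  rw [← Set.ncard_coe_finset, ← ho, ← Nat.card_zpowers]
  refine H3.card_dvd_ncard_of_free _ _ (fun a ha y hy => ?_) fun a ha y hy q => ?_
  · rw [Finset.mem_coe, Finset.mem_inter] at hy ⊢
    exact ⟨apply_mem_support_of_commute (mem_cent1.1 (zpowers_le.2 (self_mem_cent1 σ) ha)) hy.1,
      apply_mem_support_of_commute (mem_cent1.1 (zpowers_le.2 (mem_cent1.2 hc.symm) ha)) hy.2⟩
  · by_contra a1
    have : σ ∈ MulAction.stabilizer (Perm Ω) y := by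
      have := eq_zpowers_of_prime (by rw [card_zpow, ho]; exact hp) ha a1
      exact zpowers_le.2 q (this ▸ mem_zpowers σ)
    exact mem_support.1 (Finset.mem_inter.1 hy).1 this

theorem four_dvd (h1 : σ * σ = 1) (h2 : sign σ = 1) : 4 ∣ σ.support.card := by
  have h : σ ^ 2 = 1 := by rwa [sq]
  rw [sign_of_pow_two_eq_one h, neg_one_pow_eq_one_iff_even (by decide)] at h2
  have := two_dvd_card_support h
  have e : Fintype.card Ω - Fintype.card (Function.fixedPoints σ) = σ.support.card := by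
    have := card_fixedPoints σ
    have := Finset.card_le_univ σ.support
    rw [sum_cycleType] at *; omega
  obtain ⟨k, hk⟩ := h2
  omega

theorem ss_sq {a b c d : Ω} (h : [a, b, c, d].Nodup) :
    swap a b * swap c d * (swap a b * swap c d) = 1 ∧ (swap a b * swap c d).support.card = 4 := by
  have e := cycleType_swap_mul_swap_of_nodup h
  refine ⟨?_, by rw [← sum_cycleType, e]; rfl⟩
  rw [← sq, ← orderOf_dvd_iff_pow_eq_one, ← lcm_cycleType, e]; decide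

end perm

variable {G Ω : Type} [Group G] [Fintype Ω] [DecidableEq Ω]

/-- `C(z)` is a central extension of the alternating group by `⟨z⟩` -/
structure DC0 (z : G) (f : G → Perm Ω) : Prop where
  ivo : Ivo z
  mul' : ∀ a ∈ 𝒞₁ z, ∀ b ∈ 𝒞₁ z, f (a * b) = f a * f b
  ker : ∀ a ∈ 𝒞₁ z, f a = 1 ↔ a = 1 ∨ a = z
  sgn : ∀ a ∈ 𝒞₁ z, sign (f a) = 1
  surj : ∀ σ : Perm Ω, sign σ = 1 → ∃ a ∈ 𝒞₁ z, f a = σ

/-- `a` is a lift of `σ` -/
structure Lf (z : G) (f : G → Perm Ω) (a : G) (σ : Perm Ω) : Prop where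
  mem : a ∈ 𝒞₁ z
  eq : f a = σ

variable {z a b c g x y : G} {f : G → Perm Ω} {σ τ π : Perm Ω}

omit [Fintype Ω] [DecidableEq Ω] in
theorem orderOf_cj (g a : G) : orderOf (g * a * g⁻¹) = orderOf a :=
  orderOf_injective (MulAut.conj g).toMonoidHom (MulAut.conj g).injective a

theorem lf (h : a ∈ 𝒞₁ z) : Lf z f a (f a) := ⟨h, rfl⟩
theorem Lf.cast (h : Lf z f a σ) (e : σ = τ) : Lf z f a τ := e ▸ h
theorem Lf.cz (h : Lf z f a σ) : a * z = z * a := mem_cent1.1 h.mem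
theorem Lf.uq (h : Lf z f a σ) (h' : Lf z f a τ) : σ = τ := h.eq.symm.trans h'.eq

namespace DC0
variable (h : DC0 z f)
include h

/-- the homomorphism -/
def hom : 𝒞₁ z →* Perm Ω := MonoidHom.mk' (fun a => f a) fun a b => h.mul' a a.2 b b.2

theorem zz : z * z = 1 := h.ivo.2
theorem one : Lf z f 1 1 := ⟨one_mem _, (h.ker 1 (one_mem _)).2 (Or.inl rfl)⟩
theorem lz : Lf z f z 1 := ⟨self_mem_cent1 z, (h.ker z (self_mem_cent1 z)).2 (Or.inr rfl)⟩
theorem mul (h1 : Lf z f a σ) (h2 : Lf z f b τ) : Lf z f (a * b) (σ * τ) :=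
  ⟨mul_mem h1.mem h2.mem, by rw [h.mul' a h1.mem b h2.mem, h1.eq, h2.eq]⟩
theorem inv (h1 : Lf z f a σ) : Lf z f a⁻¹ σ⁻¹ :=
  ⟨inv_mem h1.mem, h1.eq ▸ map_inv h.hom ⟨a, h1.mem⟩⟩
theorem pow (h1 : Lf z f a σ) (n : ℕ) : Lf z f (a ^ n) (σ ^ n) :=
  ⟨pow_mem h1.mem n, h1.eq ▸ map_pow h.hom ⟨a, h1.mem⟩ n⟩
theorem conj (h1 : Lf z f g π) (h2 : Lf z f a σ) : Lf z f (g * a * g⁻¹) (π * σ * π⁻¹) :=
  h.mul (h.mul h1 h2) (h.inv h1)
theorem mulz (h1 : Lf z f a σ) : Lf z f (a * z) σ := (h.mul h1 h.lz).cast (mul_one σ)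
theorem sign (h1 : Lf z f a σ) : sign σ = 1 := h1.eq ▸ h.sgn a h1.mem
theorem ex (h1 : Perm.sign σ = 1) : ∃ a, Lf z f a σ :=
  let ⟨a, q1, q2⟩ := h.surj σ h1; ⟨a, q1, q2⟩
theorem of_one (h1 : Lf z f a 1) : a = 1 ∨ a = z := (h.ker a h1.mem).1 h1.eq

theorem eq_or (h1 : Lf z f a σ) (h2 : Lf z f b σ) : a = b ∨ a = b * z :=
  (h.of_one ((h.mul (h.inv h2) h1).cast (inv_mul_cancel σ))).imp
    (fun e => (inv_mul_eq_one.1 e).symm) inv_mul_eq_iff_eq_mul.1

theorem sq_mulz (h1 : a ∈ 𝒞₁ z) : a * z * (a * z) = a * a := by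
  rw [mul_assoc, ← mul_assoc z, ← mem_cent1.1 h1, mul_assoc a z, h.zz, mul_one]

theorem sq_eq (h1 : Lf z f a σ) (h2 : Lf z f b σ) : a * a = b * b := by
  rcases h.eq_or h1 h2 with rfl | rfl
  · rfl
  · exact h.sq_mulz h2.mem

theorem eq_of_odd (h1 : Lf z f a σ) (h2 : Lf z f b σ) (o1 : Odd (orderOf a)) (o2 : Odd (orderOf b)) :
    a = b := by
  rcases h.eq_or h1 h2 with e | e
  · exact e
  exfalso
  have c : Commute b z := h2.cz
  have e1 : (b * z) ^ (orderOf a * orderOf b) = 1 := by rw [← e, pow_mul, pow_orderOf_eq_one, one_pow]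
  obtain ⟨k, hk⟩ := o1.mul o2
  rw [c.mul_pow, mul_comm (orderOf a), pow_mul, pow_orderOf_eq_one, one_pow, one_mul, mul_comm, hk,
    pow_succ, pow_mul, sq, h.zz, one_pow, one_mul] at e1
  exact h.ivo.1 e1

omit h in
theorem _root_.Cfsg.H2.DC.odd3 (h : a ^ 3 = 1) : Odd (orderOf a) :=
  Odd.of_dvd_nat (by decide) (orderOf_dvd_of_pow_eq_one h)

theorem eq3 (h1 : Lf z f a σ) (h2 : Lf z f b σ) (o1 : a ^ 3 = 1) (o2 : b ^ 3 = 1) : a = b :=
  h.eq_of_odd h1 h2 (odd3 o1) (odd3 o2)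

theorem ex_odd {n : ℕ} (hn : Odd n) (h1 : Perm.sign σ = 1) (h2 : σ ^ n = 1) :
    ∃ a, Lf z f a σ ∧ a ^ n = 1 := by
  obtain ⟨a, q⟩ := h.ex h1
  rcases h.of_one ((h.pow q n).cast h2) with e | e
  · exact ⟨a, q, e⟩
  · obtain ⟨k, rfl⟩ := hn
    exact ⟨_, h.mulz q, by rw [(show Commute a z from q.cz).mul_pow, e, pow_succ, pow_mul, sq, h.zz,
      one_pow, one_mul, h.zz]⟩

theorem ex3 (h1 : Perm.sign σ = 1) (h2 : σ ^ 3 = 1) : ∃ a, Lf z f a σ ∧ a ^ 3 = 1 :=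
  h.ex_odd (by decide) h1 h2

theorem conj_eq (h1 : Lf z f g π) (h2 : Lf z f a σ) (h3 : Lf z f b τ) (o1 : Odd (orderOf a))
    (o2 : Odd (orderOf b)) (e : π * σ * π⁻¹ = τ) : g * a * g⁻¹ = b :=
  h.eq_of_odd ((h.conj h1 h2).cast e) h3 (by rwa [orderOf_cj]) o2

theorem conj_eq3 (h1 : Lf z f g π) (h2 : Lf z f a σ) (h3 : Lf z f b τ) (o1 : a ^ 3 = 1)
    (o2 : b ^ 3 = 1) (e : π * σ * π⁻¹ = τ) : g * a * g⁻¹ = b :=
  h.conj_eq h1 h2 h3 (odd3 o1) (odd3 o2) e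

theorem comm_odd (h1 : Lf z f g π) (h2 : Lf z f a σ) (o : Odd (orderOf a)) (e : π * σ = σ * π) :
    g * a = a * g :=
  mul_inv_eq_iff_eq_mul.1 (h.conj_eq h1 h2 h2 o o (mul_inv_eq_iff_eq_mul.2 e))

theorem comm3 (h1 : Lf z f g π) (h2 : Lf z f a σ) (o : a ^ 3 = 1) (e : π * σ = σ * π) :
    g * a = a * g := h.comm_odd h1 h2 (odd3 o) e

theorem comm_f (h1 : Lf z f a σ) (h2 : Lf z f b τ) (e : a * b = b * a) : σ * τ = τ * σ :=
  (h.mul h1 h2).uq (e ▸ h.mul h2 h1)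

/-- lifts of even permutations with disjoint supports commute -/
theorem comm_disj {s : Finset Ω} (h1 : Lf z f a σ) (h2 : Lf z f b τ) (hs : σ.support ⊆ s)
    (ht : ∀ p ∈ s, τ p = p) : a * b = b * a := by
  have : altOn s ≤ down h.hom (𝒞₁ b) := altOn_le_of_forall fun c hc cs => by
    obtain ⟨y, q1, q2⟩ := h.ex3 hc.sign (hc.orderOf ▸ pow_orderOf_eq_one c)
    refine ⟨⟨y, q1.mem⟩, mem_cent1.2 (h.comm3 h2 q1 q2 (Perm.Disjoint.commute fun p => ?_)).symm,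
      q1.eq⟩
    by_cases e : p ∈ s
    · exact Or.inl (ht p e)
    · exact Or.inr (notMem_support.1 fun q => e (cs q))
  obtain ⟨a', q1, q2⟩ := this (mem_altOn.2 ⟨h.sign h1, hs⟩)
  rcases h.eq_or h1 ⟨a'.2, q2⟩ with e | e
  · exact e ▸ mem_cent1.1 q1
  · exact e ▸ mem_cent1.1 (mul_mem q1 (mem_cent1.2 h2.cz.symm))

theorem cj (g : G) : DC0 (g * z * g⁻¹) fun a => f (g⁻¹ * a * g) := by
  have m : ∀ a, a ∈ 𝒞₁ (g * z * g⁻¹) ↔ g⁻¹ * a * g ∈ 𝒞₁ z := fun a => by rw [← cj_cent1, mem_cj]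
  refine ⟨h.ivo.conj g, fun a ha b hb => ?_, fun a ha => ?_, fun a ha => h.sgn _ ((m a).1 ha),
    fun σ hσ => ?_⟩
  · rw [← h.mul' _ ((m a).1 ha) _ ((m b).1 hb)]; congr 1; group
  · rw [h.ker _ ((m a).1 ha)]
    exact or_congr ⟨fun e => by rw [show a = g * (g⁻¹ * a * g) * g⁻¹ by group, e]; group,
      fun e => by rw [e]; group⟩ ⟨fun e => by rw [← e]; group, fun e => by rw [e]; group⟩
  · obtain ⟨a, q1, q2⟩ := h.surj σ hσ
    have e : g⁻¹ * (g * a * g⁻¹) * g = a := by group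
    exact ⟨g * a * g⁻¹, (m _).2 (e.symm ▸ q1), by simp only [e, q2]⟩

/-- lifts of order `3` of `3`-cycles with support in `s` -/
def T3 (_ : DC0 z f) (s : Finset Ω) : Set G :=
  {y | y ∈ 𝒞₁ z ∧ y ^ 3 = 1 ∧ (f y = 1 ∨ (f y).IsThreeCycle) ∧ (f y).support ⊆ s}

variable {s : Finset Ω} {m : Ω}

theorem T3_conj (hx : x ∈ h.T3 s) (hg : g ∈ 𝒞₁ z) (hs : (f g).support ⊆ s) :
    g * x * g⁻¹ ∈ h.T3 s := by
  have l := h.conj (lf hg) (lf hx.1)
  refine ⟨l.mem, by rw [conj_pow, hx.2.1]; group, l.eq ▸ hx.2.2.1.imp (fun e => by simp [e])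
    fun e => by rw [IsThreeCycle, cycleType_conj]; exact e, l.eq ▸ ?_⟩
  refine (support_mul_le _ _).trans (sup_le ((support_mul_le _ _).trans (sup_le hs hx.2.2.2)) ?_)
  rwa [support_inv]

theorem T3_inv (hx : x ∈ h.T3 s) : x⁻¹ ∈ h.T3 s := by
  have l := h.inv (lf hx.1)
  exact ⟨l.mem, by rw [inv_pow, hx.2.1, inv_one], l.eq ▸ hx.2.2.1.imp (fun e => by simp [e]) (·.inv),
    l.eq ▸ by rw [support_inv]; exact hx.2.2.2⟩

theorem T3_of_fix (hx : x ∈ h.T3 (insert m s)) (e : f x m = m) : x ∈ h.T3 s :=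
  ⟨hx.1, hx.2.1, hx.2.2.1, fun _ hp => (Finset.mem_insert.1 (hx.2.2.2 hp)).resolve_left
    fun q => mem_support.1 hp (q ▸ e)⟩

theorem T3_mul (hD : ∀ (e : G) (p q r t : Ω), [p, q, r, t].Nodup →
      Lf z f e (swap p q * swap r t) → e * e = 1) (hx : x ∈ h.T3 s) (hy : y ∈ h.T3 s)
    (h1 : f y m ≠ m) (h2 : f x (f y m) = m) : x * y ∈ h.T3 s := by
  have cy := hy.2.2.1.resolve_left fun e => h1 (by rw [e]; rfl)
  have cx := hx.2.2.1.resolve_left fun e => h1 (by rw [e] at h2; exact h2)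
  obtain ⟨k, i, q1, q2, q3, e, -⟩ := exists_eq_swap_mul_swap cy (mem_support.2 h1)
  obtain rfl : f y m = i := by rw [e]; simp [swap_apply_of_ne_of_ne q2.symm q3.symm]
  obtain ⟨a, m', p1, p2, p3, e', -⟩ := exists_eq_swap_mul_swap cx
    (mem_support.2 (h2.symm ▸ h1.symm : f x (f y m) ≠ f y m))
  obtain rfl : m = m' := by rw [← h2, e']; simp [swap_apply_of_ne_of_ne p2.symm p3.symm]
  by_cases ak : a = k
  · have : x = y⁻¹ := h.eq3 (lf hx.1) ((h.inv (lf hy.1)).cast (by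
      subst ak
      generalize f y m = i at *
      rw [e, e', mul_inv_rev, swap_inv, swap_inv]; ext p; simp only [coe_mul, Function.comp_apply]
      grind)) hx.2.1 (h.T3_inv hy).2.1
    rw [this, inv_mul_cancel]
    exact ⟨one_mem _, one_pow 3, Or.inl h.one.eq, by rw [h.one.eq]; simp⟩
  · have := hD _ (f y m) a m k (by simp [p1, p2, p3, ak, q1, q3.symm])
      ((h.mul (lf hx.1) (h.inv (lf hy.1))).cast (by
        generalize f y m = i at *
        rw [e', e, mul_inv_rev, swap_inv, swap_inv, swap_comm m i, ← mul_assoc, mul_assoc _ _ (swap i m),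
          swap_mul_self, mul_one]))
    have e3 : x * y = x⁻¹ * y⁻¹ * x⁻¹⁻¹ := by
      have y3 : y = y⁻¹ * y⁻¹ := by
        rw [eq_mul_inv_iff_mul_eq, eq_inv_iff_mul_eq_one, ← pow_three', hy.2.1]
      have x3 : x⁻¹ = x * x := by rw [inv_eq_iff_mul_eq_one, ← pow_three, hx.2.1]
      have e1 : y = x * y⁻¹ * x := by rw [eq_comm, ← mul_inv_eq_one, ← this]; group
      rw [inv_inv]
      conv_lhs => rw [e1]
      rw [x3]; group
    exact e3 ▸ h.T3_conj (h.T3_inv hy) (inv_mem hx.1) (h.T3_inv hx).2.2.2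

theorem T3_step (hD : ∀ (e : G) (p q r t : Ω), [p, q, r, t].Nodup →
      Lf z f e (swap p q * swap r t) → e * e = 1) (hg : g ∈ closure (h.T3 (insert m s))) :
    ∃ y ∈ h.T3 (insert m s), y⁻¹ * g ∈ closure (h.T3 s) := by
  have o : (1 : G) ∈ h.T3 (insert m s) :=
    ⟨one_mem _, one_pow 3, Or.inl h.one.eq, by rw [h.one.eq]; simp⟩
  have k : ∀ x ∈ h.T3 (insert m s), ∀ y ∈ h.T3 (insert m s),
      ∃ y' ∈ h.T3 (insert m s), y'⁻¹ * (x * y) ∈ closure (h.T3 s) := fun x hx y hy => by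
    by_cases e1 : f x m = m
    · exact ⟨_, h.T3_conj hy hx.1 hx.2.2.2, by
        rw [show (x * y * x⁻¹)⁻¹ * (x * y) = x by group]; exact subset_closure (h.T3_of_fix hx e1)⟩
    by_cases e2 : f y m = m
    · exact ⟨x, hx, by rw [inv_mul_cancel_left]; exact subset_closure (h.T3_of_fix hy e2)⟩
    by_cases e3 : f x (f y m) = f y m
    · have m1 := h.T3_conj hx (inv_mem hy.1) (h.T3_inv hy).2.2.2
      refine ⟨y, hy, subset_closure ?_⟩
      rw [inv_inv, mul_assoc] at m1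
      refine h.T3_of_fix m1 ?_
      rw [(h.mul (h.inv (lf hy.1)) (h.mul (lf hx.1) (lf hy.1))).eq]
      simp [e3]
    have kk : ∀ x ∈ h.T3 (insert m s), f x (f y m) = m → x * y ∈ closure (h.T3 s) := fun x hx e =>
      subset_closure (h.T3_of_fix (h.T3_mul hD hx hy e2 e) (by
        rw [(h.mul (lf hx.1) (lf hy.1)).eq]; exact e))
    by_cases e4 : f x (f y m) = m
    · exact ⟨1, o, by simpa using kk x hx e4⟩
    · have cx := hx.2.2.1.resolve_left fun e => e1 (by rw [e]; rfl)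
      have x3 : x⁻¹ = x * x := by rw [inv_eq_iff_mul_eq_one, ← pow_three, hx.2.1]
      refine ⟨_, h.T3_inv hx, ?_⟩
      rw [inv_inv, ← mul_assoc, ← x3]
      refine kk _ (h.T3_inv hx) ?_
      rw [(h.inv (lf hx.1)).eq, Perm.inv_eq_iff_eq]
      have := mem_support.2 e3
      rw [cx.support_eq_iff_mem_support.2 (mem_support.2 e1)] at this
      simp only [Finset.mem_insert, Finset.mem_singleton] at this
      refine (this.resolve_left e2).resolve_right fun q => e4 ?_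
      have : (f x ^ 3) m = m := by rw [← cx.orderOf, pow_orderOf_eq_one]; rfl
      rw [q]; simpa [pow_succ] using this
  induction hg using closure_induction_left with
  | one => exact ⟨1, o, by simp⟩
  | mul_left x hx g _ ih =>
    obtain ⟨y, hy, q⟩ := ih
    obtain ⟨y', hy', q'⟩ := k x hx y hy
    exact ⟨y', hy', by convert mul_mem q' q using 1; group⟩
  | inv_mul_cancel x hx g _ ih =>
    obtain ⟨y, hy, q⟩ := ih
    obtain ⟨y', hy', q'⟩ := k _ (h.T3_inv hx) y hy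
    exact ⟨y', hy', by convert mul_mem q' q using 1; group⟩

theorem T3_supp (hg : g ∈ closure (h.T3 s)) : g ∈ 𝒞₁ z ∧ ∀ p, p ∉ s → f g p = p := by
  induction hg using closure_induction with
  | mem x hx => exact ⟨hx.1, fun p hp => notMem_support.1 fun q => hp (hx.2.2.2 q)⟩
  | one => exact ⟨one_mem _, fun p _ => by rw [h.one.eq]; rfl⟩
  | mul x y _ _ h1 h2 => exact ⟨mul_mem h1.1 h2.1, fun p hp => by
      rw [h.mul' _ h1.1 _ h2.1, Perm.mul_apply, h2.2 p hp, h1.2 p hp]⟩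
  | inv x _ h1 => exact ⟨inv_mem h1.1, fun p hp => by
      rw [(h.inv (lf h1.1)).eq, Perm.inv_eq_iff_eq, h1.2 p hp]⟩

theorem z_not_mem (hD : ∀ (e : G) (p q r t : Ω), [p, q, r, t].Nodup →
      Lf z f e (swap p q * swap r t) → e * e = 1) (s : Finset Ω) : z ∉ closure (h.T3 s) := by
  induction s using Finset.induction_on with
  | empty =>
    intro e
    refine h.ivo.1 (mem_bot.1 ((closure_le ⊥).2 (fun y hy => ?_) e))
    exact h.eq3 (lf hy.1) (h.one.cast (support_eq_empty_iff.1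
      (Finset.subset_empty.1 hy.2.2.2)).symm) hy.2.1 (one_pow 3)
  | insert m s hm ih =>
    intro e
    obtain ⟨y, hy, q⟩ := h.T3_step hD e
    have := (h.T3_supp q).2 m hm
    rw [(h.mulz (h.inv (lf hy.1))).eq, Perm.inv_eq_iff_eq] at this
    exact ih ((mul_mem_cancel_left (inv_mem (subset_closure (h.T3_of_fix hy this.symm)))).1 q)

theorem split (hD : ∀ (e : G) (p q r t : Ω), [p, q, r, t].Nodup →
      Lf z f e (swap p q * swap r t) → e * e = 1) :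
    ∃ H : Subgroup G, H ≤ 𝒞₁ z ∧ z ∉ H ∧ ∀ a ∈ 𝒞₁ z, a ∈ H ∨ a * z ∈ H := by
  refine ⟨_, fun g hg => (h.T3_supp hg).1, h.z_not_mem hD Finset.univ, fun a ha => ?_⟩
  have : altOn Finset.univ ≤ down h.hom (closure (h.T3 Finset.univ)) :=
    altOn_le_of_forall fun c hc cs => by
      obtain ⟨y, q1, q2⟩ := h.ex3 hc.sign (hc.orderOf ▸ pow_orderOf_eq_one c)
      exact ⟨⟨y, q1.mem⟩, subset_closure ⟨q1.mem, q2, Or.inr (q1.eq ▸ hc), Finset.subset_univ _⟩,
        q1.eq⟩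
  obtain ⟨a', q1, q2⟩ := this (mem_altOn.2 ⟨h.sgn a ha, Finset.subset_univ _⟩)
  have q1 : (a' : G) ∈ closure (h.T3 Finset.univ) := q1
  rcases h.eq_or ⟨a'.2, q2⟩ (lf ha) with e | e
  · exact Or.inl (e ▸ q1)
  · exact Or.inr (e ▸ q1)

end DC0

/-- `C(z)` is a non-split double cover of the alternating group -/
structure DCv (z : G) (f : G → Perm Ω) : Prop extends DC0 z f where
  sq : ∀ {a : G} {σ : Perm Ω}, Lf z f a σ → σ * σ = 1 → σ.support.card = 4 → a * a = z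

theorem DC0.dcv (h : DC0 z f)
    (hn : ∀ H : Subgroup G, H ≤ 𝒞₁ z → z ∉ H → ¬ ∀ a ∈ 𝒞₁ z, a ∈ H ∨ a * z ∈ H) : DCv z f := by
  refine ⟨h, fun {a σ} h1 h2 h3 => (h.of_one ((h.mul h1 h1).cast h2)).resolve_left fun e => ?_⟩
  obtain ⟨H, q1, q2, q3⟩ := h.split fun b p q r t hn hb => by
    obtain ⟨π, p1, p2⟩ := conj2 h2 (ss_sq hn).1 (h3.trans (ss_sq hn).2.symm)
    obtain ⟨g, hg⟩ := h.ex p1
    rw [h.sq_eq hb ((h.conj hg h1).cast p2), show g * a * g⁻¹ * (g * a * g⁻¹) = g * (a * a) * g⁻¹ by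
      group, e, mul_one, mul_inv_cancel]
  exact hn H q1 q2 q3

theorem DCv.cj (h : DCv z f) (g : G) : DCv (g * z * g⁻¹) fun a => f (g⁻¹ * a * g) :=
  ⟨h.toDC0.cj g, fun {a σ} h1 h2 h3 => by
    have := h.sq (a := g⁻¹ * a * g) ⟨by rw [← mem_cj, cj_cent1]; exact h1.mem, h1.eq⟩ h2 h3
    rw [← this]; group⟩

end Cfsg.H2.DC
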