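import Cfsg.Agent.H2.DC1

/-! The degree lies between `8` and `11`. -/

set_option autoImplicit false
set_option linter.unusedSectionVars false

namespace Cfsg.H2.DC

open Subgroup Cfsg.L0 Cfsg.H8 Cfsg.FT Cfsg.BS Cfsg.BS.R Equiv Equiv.Perm
open scoped commutatorElement

section perm
variable {Ω : Type} [Fintype Ω] [DecidableEq Ω] {σ τ π ρ : Perm Ω} {p q : Ω}

/-- `π` fixes the support of `σ` pointwise -/
def FixS (σ π : Perm Ω) : Prop := ∀ p, σ p ≠ p → π p = p

theorem FixS.mul (h : FixS σ π) (h' : FixS σ ρ) : FixS σ (π * ρ) := fun p hp => by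
  rw [Perm.mul_apply, h' p hp, h p hp]

theorem FixS.br (h : FixS σ π) (hc : ρ * σ = σ * ρ) : FixS σ (π * ρ * π⁻¹ * ρ⁻¹) := fun p hp => by
  have : σ (ρ⁻¹ p) ≠ ρ⁻¹ p := fun e => hp (by
    have := congrArg ρ e
    rwa [← Perm.mul_apply, hc, Perm.mul_apply, show ρ (ρ⁻¹ p) = p by simp] at this)
  simp only [Perm.mul_apply]
  rw [Perm.inv_eq_iff_eq.2 (h _ this).symm, show ρ (ρ⁻¹ p) = p by simp, h p hp]

theorem FixS.eq_one (h : FixS σ σ) : σ = 1 := Equiv.ext fun p => by_contra fun e => e (h p e)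

theorem app_app (h : σ * σ = 1) (p : Ω) : σ (σ p) = p := by rw [← Perm.mul_apply, h, Perm.one_apply]

theorem app_comm (h : π * σ = σ * π) (p : Ω) : π (σ p) = σ (π p) := by
  rw [← Perm.mul_apply, h, Perm.mul_apply]

/-- the product of two transpositions of `τ` -/
def dt (τ : Perm Ω) (p q : Ω) : Perm Ω := swap p (τ p) * swap q (τ q)

theorem dt_conj (h : π * τ = τ * π) (p q : Ω) : π * dt τ p q * π⁻¹ = dt τ (π p) (π q) := by
  rw [dt, dt, ← app_comm h, ← app_comm h, swap_apply_apply, swap_apply_apply]; group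

theorem sw_comm (h : τ * τ = 1) (p q : Ω) : Commute (swap p (τ p)) (swap q (τ q)) := by
  have := app_app h
  ext x
  simp only [Perm.mul_apply]
  grind

theorem dt_sq (h : τ * τ = 1) (p q : Ω) : dt τ p q * dt τ p q = 1 := by
  rw [dt, ← sq, (sw_comm h p q).mul_pow, sq, sq, swap_mul_self, swap_mul_self, one_mul]

theorem dt_comm (h : τ * τ = 1) (p q r s : Ω) : Commute (dt τ p q) (dt τ r s) :=
  ((sw_comm h p r).mul_right (sw_comm h p s)).mul_left ((sw_comm h q r).mul_right (sw_comm h q s))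

theorem exists_notMem {s t : Finset Ω} (h : t.card < s.card) : ∃ p ∈ s, p ∉ t :=
  Finset.exists_mem_notMem_of_card_lt_card h

end perm

variable {G Ω : Type} [Group G] [Fintype Ω] [DecidableEq Ω]
  {z t a b c e g x y : G} {f f' : G → Perm Ω} {σ τ π : Perm Ω} {p q : Ω}

theorem DC0.key (h : DC0 z f) (ht : t ∈ 𝒞₁ z) (h1 : f t ≠ 1) (hy : y ∈ 𝒞₁ z) (he : e ∈ 𝒞₁ z)
    (hc : e * t = t * e) (hf : FixS (f t) (f y)) : y * e * y⁻¹ * e⁻¹ * (y * e * y⁻¹ * e⁻¹) ≠ t := by
  intro q
  have l := h.mul (h.conj (lf hy) (lf he)) (h.inv (lf he))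
  have := hf.br (h.comm_f (lf he) (lf ht) hc)
  exact h1 (FixS.eq_one (by
    have e := (h.mul l l).eq
    rw [q] at e
    nth_rewrite 2 [e]
    exact this.mul this))

theorem DC0.ne_one (h : DC0 z f) (ht : t ∈ 𝒞₁ z) (h1 : t ≠ 1) (h2 : t ≠ z) : f t ≠ 1 := fun e =>
  ((h.ker t ht).1 e).elim h1 h2

theorem DC0.ff (h : DC0 z f) (ht : t ∈ 𝒞₁ z) (h1 : t * t = 1) : f t * f t = 1 :=
  (h.mul (lf ht) (lf ht)).uq (h1 ▸ h.one)

theorem DC0.comm_dt (h : DC0 z f) (ht : Lf z f t τ) (h1 : τ * τ = 1) (h2 : q ≠ p) (h3 : q ≠ τ p)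
    (he : Lf z f e (dt τ p q)) : e * t = t * e := by
  have := h.comm_disj (s := {p, τ p, q, τ q}) he (h.mul (h.inv he) ht) (fun x hx => by
    rw [mem_support, dt] at hx
    simp only [coe_mul, Function.comp_apply, Finset.mem_insert, Finset.mem_singleton] at hx ⊢
    grind) fun x hx => by
    have := app_app h1
    rw [Perm.mul_apply, Perm.inv_eq_iff_eq, dt]
    simp only [coe_mul, Function.comp_apply, Finset.mem_insert, Finset.mem_singleton] at hx ⊢
    grind
  rw [mul_inv_cancel_left, mul_assoc, eq_inv_mul_iff_mul_eq] at this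
  exact this

namespace DCv
variable (h : DCv z f)
include h

theorem ss {a b c d : Ω} (hn : [a, b, c, d].Nodup) (he : Lf z f e (swap a b * swap c d)) :
    e * e = z := h.sq he (ss_sq hn).1 (ss_sq hn).2

theorem supp8 (ht : t ∈ 𝒞₁ z) (h1 : Ivo t) (h2 : t ≠ z) : 8 ≤ (f t).support.card := by
  have e := h.ff ht h1.2
  have := four_dvd e (h.sgn t ht)
  have a : (f t).support.card ≠ 0 := fun q => h.ne_one ht h1.1 h2
    (support_eq_empty_iff.1 (Finset.card_eq_zero.1 q))
  have b : (f t).support.card ≠ 4 := fun q => h.ivo.1 ((h.sq (lf ht) e q).symm.trans h1.2)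
  omega

theorem ex_dt (ht : Lf z f t τ) (h1 : τ * τ = 1) (hp : τ p ≠ p) (hq : τ q ≠ q) (h2 : q ≠ p)
    (h3 : q ≠ τ p) : ∃ e, Lf z f e (dt τ p q) ∧ e * e = z ∧ e * t = t * e := by
  obtain ⟨e, he⟩ := h.ex (σ := dt τ p q) (by simp [dt, hp.symm, hq.symm])
  have := app_app h1
  exact ⟨e, he, h.ss (by simp; grind) he, h.comm_dt ht h1 h2 h3 he⟩

theorem fix3 (h' : DCv t f') (ht : t ∈ 𝒞₁ z) (h2 : t ≠ z) :
    Fintype.card Ω < (f t).support.card + 4 := by
  by_contra hn
  have hz := mem_cent1_comm.1 ht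
  obtain ⟨a, b, c, d, ha, hb, hc, hd, ne⟩ := Finset.three_lt_card_iff.1
    (show 3 < (f t).supportᶜ.card by rw [Finset.card_compl]; omega)
  have fx : ∀ p ∈ ({a, b, c, d} : Finset Ω), f t p = p := fun p hp => by
    simp only [Finset.mem_compl, notMem_support, Finset.mem_insert, Finset.mem_singleton] at *
    grind
  have c3 := isThreeCycle_swap_mul_swap_same ne.1 ne.2.1 ne.2.2.2.1
  obtain ⟨y, y1, y2⟩ := h.ex3 c3.sign (c3.orderOf ▸ pow_orderOf_eq_one _)
  obtain ⟨e, e1⟩ := h.ex (σ := swap a b * swap c d) (by simp [ne.1, ne.2.2.2.2.2])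
  have sy : (swap a b * swap a c).support ⊆ {a, b, c, d} := fun x hx => by
    rw [mem_support] at hx
    simp only [coe_mul, Function.comp_apply, Finset.mem_insert, Finset.mem_singleton] at hx ⊢
    grind
  have yt := mem_cent1.2 (h.comm_disj y1 (lf ht) sy fx)
  have et := mem_cent1.2 (h.comm_disj e1 (lf ht) (fun x hx => by
    rw [mem_support] at hx
    simp only [coe_mul, Function.comp_apply, Finset.mem_insert, Finset.mem_singleton] at hx ⊢
    grind) fx)
  obtain ⟨p, p1, p2⟩ : ∃ p, f' z p ≠ p ∧ f' y p ≠ p := by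
    by_contra q
    push Not at q
    refine h'.key hz (h'.ne_one hz h.ivo.1 h2.symm) yt et e1.cz q (h.ss (a := a) (b := d) (c := b)
      (d := c) (by simp; grind) ((h.mul (h.conj y1 e1) (h.inv e1)).cast ?_))
    simp only [mul_inv_rev, swap_inv]
    ext x
    simp only [Perm.mul_apply]
    grind (splits := 40)
  have s2 := h'.ff hz h.zz
  have s3 := app_app s2
  have cY := h'.comm_f (lf yt) (lf hz) y1.cz
  have s4 := app_comm cY
  have s5 : ∀ p, f' y (f' y (f' y p)) = p := fun p => by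
    have := ((h'.pow (lf yt) 3).uq (y2 ▸ h'.one))
    simpa [pow_succ] using congrArg (fun π : Perm Ω => π p) this
  obtain ⟨e', q1, q2, q3⟩ := h'.ex_dt (p := p) (q := f' y p) (lf hz) s2 p1 (by grind) p2 (by grind)
  refine h.key ht (h.ne_one ht h'.ivo.1 h2) y1.mem (mem_cent1.2 q3) q1.cz (fun x hx => ?_)
    (h'.ss (a := f' y (f' y p)) (b := f' z (f' y (f' y p))) (c := p) (d := f' z p) (by simp; grind)
      ((h'.mul (h'.conj (lf yt) q1) (h'.inv q1)).cast ?_))
  · rw [y1.eq]; exact notMem_support.1 fun q => hx (fx x (sy q))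
  · rw [dt_conj cY, dt, dt, mul_inv_rev, swap_inv, swap_inv, (sw_comm s2 _ _).eq, mul_assoc,
      ← mul_assoc (swap (f' y p) _), swap_mul_self, one_mul]

theorem le11 (h' : DCv t f') (ht : t ∈ 𝒞₁ z) (h2 : t ≠ z) : Fintype.card Ω ≤ 11 := by
  by_contra hn
  have hz := mem_cent1_comm.1 ht
  have c1 := h.supp8 ht h'.ivo h2
  have c2 := h'.fix3 h hz h2.symm
  have t2 := h.ff ht h'.zz
  obtain ⟨p, p1, -⟩ := exists_notMem (s := (f t).support) (t := ∅) (by rw [Finset.card_empty]; omega)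
  obtain ⟨q, q1, q2⟩ := exists_notMem (s := (f t).support) (t := {p, f t p})
    (Finset.card_le_two.trans_lt (by omega))
  simp only [Finset.mem_insert, Finset.mem_singleton, not_or, mem_support] at p1 q1 q2
  obtain ⟨e, e1, e2, e3⟩ := h.ex_dt (lf ht) t2 p1 q1 q2.1 q2.2
  have et := mem_cent1.2 e3
  have s2 := h'.ff hz h.zz
  have s3 := app_app s2
  have s4 : ∀ x, f' e (f' e x) = f' z x := fun x => by
    rw [← Perm.mul_apply, ← h'.mul' _ et _ et, e2]
  have s5 := app_comm (h'.comm_f (lf et) (lf hz) e1.cz)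
  generalize hE : f' e = E at s4 s5
  generalize hs : f' z = σ at s2 s3 s4 s5 c2
  obtain ⟨a, a1, -⟩ := exists_notMem (s := σ.support) (t := ∅) (by rw [Finset.card_empty]; omega)
  obtain ⟨b, b1, b2⟩ := exists_notMem (s := σ.support) (t := {a, E a, σ a, σ (E a)})
    (Finset.card_le_four.trans_lt (by omega))
  obtain ⟨c, c1, c3⟩ := exists_notMem (s := σ.support)
    (t := {a, E a, σ a, σ (E a)} ∪ {b, E b, σ b, σ (E b)})
    (((Finset.card_union_le _ _).trans (add_le_add Finset.card_le_four Finset.card_le_four)).trans_lt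
      (by omega))
  simp only [Finset.mem_insert, Finset.mem_singleton, not_or, mem_support, Finset.mem_union]
    at a1 b1 b2 c1 c3
  have k3 := isThreeCycle_swap_mul_swap_same (Ne.symm b2.1) (Ne.symm c3.1.1) (Ne.symm c3.2.1)
  have ek : σ * (swap a b * swap a c) * σ⁻¹ = swap (σ a) (σ b) * swap (σ a) (σ c) := by
    rw [swap_apply_apply, swap_apply_apply]; group
  have dj : Commute (swap a b * swap a c) (σ * (swap a b * swap a c) * σ⁻¹) := by
    rw [ek]
    refine Perm.Disjoint.commute fun x => ?_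
    simp only [Perm.mul_apply]
    grind
  have o3 : (swap a b * swap a c) ^ 3 = 1 := k3.orderOf ▸ pow_orderOf_eq_one _
  obtain ⟨y, y1, y2⟩ := h'.ex3 (σ := swap a b * swap a c * (σ * (swap a b * swap a c) * σ⁻¹))
    (by simp [k3.sign]) (by rw [dj.mul_pow, conj_pow, o3]; group)
  have yz := mem_cent1.2 (h'.comm3 (lf hz) y1 y2 (by
    have i : σ⁻¹ = σ := inv_eq_of_mul_eq_one_right s2
    rw [hs]
    conv_lhs => rw [dj.eq]
    rw [i]
    simp only [← mul_assoc, s2, one_mul]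
    rw [mul_assoc _ σ σ, s2, mul_one])).symm
  have l := h.mul (h.conj (lf yz) e1) (h.inv e1)
  rw [dt_conj (h.comm_f (lf yz) (lf ht) y1.cz)] at l
  have c4 : (y * e * y⁻¹ * e⁻¹) ^ 4 = 1 := by
    have := h.of_one ((h.pow l 2).cast (by
      rw [(dt_comm t2 _ _ _ _).inv_right.mul_pow, inv_pow, pow_two, pow_two, dt_sq t2, dt_sq t2]
      simp))
    rw [show 4 = 2 * 2 from rfl, pow_mul]
    rcases this with e | e <;> rw [e]
    · exact one_pow 2
    · rw [pow_two, h.zz]
  have l' := (h'.pow (h'.mul (h'.conj y1 (lf et)) (h'.inv (lf et))) 4).uq (c4 ▸ h'.one)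
  rw [hE, ek] at l'
  generalize hY : swap a b * swap a c * (swap (σ a) (σ b) * swap (σ a) (σ c)) = Y at l'
  have fx : ∀ x, x = a ∨ x = b ∨ x = c → (Y * E * Y⁻¹ * E⁻¹) x = Y x := fun x hx => by
    have e1 : E⁻¹ x = σ (E x) := by rw [Perm.inv_eq_iff_eq, s5, s4, s3]
    have e2 : Y⁻¹ (σ (E x)) = σ (E x) := by
      rw [Perm.inv_eq_iff_eq, ← hY]
      simp only [Perm.mul_apply]
      grind
    simp only [Perm.mul_apply]
    rw [e1, e2, s5, s4, s3]
  have ya : Y a = c := by rw [← hY]; simp only [Perm.mul_apply]; grind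
  have yb : Y b = a := by rw [← hY]; simp only [Perm.mul_apply]; grind
  have yc : Y c = b := by rw [← hY]; simp only [Perm.mul_apply]; grind
  have := congrArg (fun π : Perm Ω => π a) l'
  generalize Y * E * Y⁻¹ * E⁻¹ = Z at fx this
  simp only [pow_succ, pow_zero, one_mul, Perm.mul_apply, Perm.one_apply] at this
  rw [fx a (by simp), ya, fx c (by simp), yc, fx b (by simp), yb, fx a (by simp), ya] at this
  exact c3.1.1 this

end DCv

end Cfsg.H2.DC
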