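import Cfsg.Agent.H2.DC2

/-! Degrees `9` and `10`: classes of involutions and of elements of order `3`. -/

set_option autoImplicit false
set_option linter.unusedSectionVars false

namespace Cfsg.H2.DC

open Subgroup Cfsg.L0 Cfsg.H8 Cfsg.FT Cfsg.BS Cfsg.BS.R Equiv Equiv.Perm
open scoped commutatorElement

section grp
variable {G : Type} [Group G] [Finite G] {M Y A : Subgroup G} {a b e g s t x y z : G}

theorem four_card (he : Ivo a) (hf : Ivo b) (hne : a ≠ b) (hc : a * b = b * a) :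
    ♯(zpowers a ⊔ zpowers b) = 4 := by
  rw [card_sup_of_inf (le_norm_of_le_cent (zpowers_le.2 (cent_zpowers a ▸ mem_cent1.2 hc.symm)))
    (inf_eq_bot_of_prime (by rw [card_zpow, he.orderOf]; decide) fun q =>
      (mem_zp2 hf.2 (q (mem_zpowers a))).elim he.1 hne), card_zpow, card_zpow, he.orderOf, hf.orderOf]

theorem rk2_dvd (h : Rk2 M) : 4 ∣ ♯M := by
  obtain ⟨e, he, f, hf, h1, h2, h3, h4⟩ := h
  exact four_card h1 h2 h3 h4 ▸ card_dvd (sup_le (zpowers_le.2 he) (zpowers_le.2 hf))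

omit [Finite G] in
theorem rk2_cj (h : Rk2 M) (g : G) : Rk2 (cj g M) := by
  obtain ⟨e, he, f, hf, h1, h2, h3, h4⟩ := h
  exact ⟨_, conj_mem_cj he, _, conj_mem_cj hf, h1.conj g, h2.conj g, fun q => h3 (by simpa using q),
    by rw [conj_mul, conj_mul, h4]⟩

/-- the centralizer has order divisible by `4` -/
def Big (y : G) : Prop := 4 ∣ ♯(𝒞₁ y)

omit [Finite G] in
theorem Big.conj (h : Big y) (g : G) : Big (g * y * g⁻¹) := by rwa [Big, ← cj_cent1, card_cj]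

omit [Finite G] in
theorem rk2_conj (h : Rk2 (𝒞₁ y)) (g : G) : Rk2 (𝒞₁ (g * y * g⁻¹)) := cj_cent1 g y ▸ rk2_cj h g

omit [Finite G] in
theorem conj_back (g y : G) : g⁻¹ * (g * y * g⁻¹) * g⁻¹⁻¹ = y := by group

theorem rk_of (hz : Ivo z) (hM : z ∈ M) (h : Rk2 M) : ∃ t ∈ M, Ivo t ∧ t ≠ z ∧ t ∈ 𝒞₁ z := by
  by_contra q
  have u : ∀ t ∈ M, Ivo t → t ∈ 𝒞₁ z → t = z := fun t h1 h2 h3 => by_contra fun e => q ⟨t, h1, h2, e, h3⟩
  obtain ⟨S, s1, s2⟩ := exists_isSyl_ge (card_zp2 hz.2) (zpowers_le.2 hM)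
  obtain ⟨w, w1, w2⟩ := exists_orderOf_eq Nat.prime_two (dvd_card_of_pgroup Nat.prime_two
    (s1.isPGroup.to_le inf_le_left) (ctr_ne_bot (nil_of_pgroup Nat.prime_two s1.isPGroup)
      (ne_bot_of_mem (s2 (mem_zpowers z)) hz.1)))
  obtain rfl := u w (s1.le w1.1) (ivo_of_orderOf w2) (cent_le_cent1 (s2 (mem_zpowers z)) w1.2)
  obtain ⟨e, he, f, hf, h1, h2, h3, h4⟩ := h
  obtain ⟨g, -, hg⟩ := s1.exists_cj_le (four_pg h1.2 h2.2 h4)
    (sup_le (zpowers_le.2 he) (zpowers_le.2 hf))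
  have k : ∀ d ∈ zpowers e ⊔ zpowers f, Ivo d → g * d * g⁻¹ = w := fun d m i =>
    u _ (s1.le (hg (conj_mem_cj m))) (i.conj g) (le_cent1_iff.2 w1.2 (hg (conj_mem_cj m)))
  have := (k e (mem_sup_left (mem_zpowers e)) h1).trans (k f (mem_sup_right (mem_zpowers f)) h2).symm
  exact h3 (by simpa using this)

omit [Finite G] in
theorem flip (he : e * e = z) (hz : z * z = 1) (ht : t * t = 1) (h : e * t * (e * t) = 1) :
    e * t * e⁻¹ = t * z := by
  have e1 : e * t * e = t := by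
    rw [← mul_left_inj t, ht, ← h]; group
  have e2 : e⁻¹ * e⁻¹ = z := by rw [← mul_inv_rev, he]; exact inv_eq_of_mul_eq_one_right hz
  rw [← e2, ← mul_assoc]; nth_rewrite 2 [← e1]; group

omit [Finite G] in
theorem keep (he : e * e = z) (ht : t * t = 1) (h : e * t * (e * t) = z) : e * t = t * e := by
  rw [← he, mul_assoc, mul_right_inj, ← mul_assoc] at h
  calc e * t = t * (t * e * t) * 1 := by rw [← mul_assoc, ← mul_assoc, ht]; group
    _ = _ := by rw [h, mul_one]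

/-- decomposition into a fixed and an inverted element -/
theorem dec (ho : Odd ♯Y) (hs : s * s = 1) (hn : s ∈ 𝒩 Y) (hy : y ∈ Y) :
    ∃ c ∈ Y ⊓ 𝒞₁ s, ∃ k, InK Y s k ∧ y = c * k := by
  have i : s⁻¹ = s := inv_eq_of_mul_eq_one_right hs
  have m : y⁻¹ * (s * y * s) ∈ Y := mul_mem (inv_mem hy) (by have := conj_mem_of_norm hn hy; rwa [i] at this)
  have e : s * (y⁻¹ * (s * y * s)) * s = (y⁻¹ * (s * y * s))⁻¹ := by
    rw [show s * (y⁻¹ * (s * y * s)) * s = s * y⁻¹ * s * y * (s * s) by group, hs]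
    simp only [mul_inv_rev, i, inv_inv]; group
  obtain ⟨n, hn'⟩ := exists_pow_eq_self_of_coprime (x := y⁻¹ * (s * y * s)) (n := 2)
    (Nat.coprime_two_left.2 (odd_of_mem ho m))
  have e2 := inv_pow' hs e (npow_mem_zpowers _ n)
  rw [← pow_mul, mul_comm, pow_mul, pow_two] at hn'
  have m2 := pow_mem m n
  generalize (y⁻¹ * (s * y * s)) ^ n = r at hn' e2 m2
  refine ⟨y * r, ⟨mul_mem hy m2, mem_cent1.2 ?_⟩, r⁻¹, ⟨inv_mem m2, ?_⟩, by group⟩
  · have : s * (y * r) * s⁻¹ = y * r := by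
      rw [show s * (y * r) * s⁻¹ = y * (y⁻¹ * (s * y * s⁻¹)) * (s * r * s⁻¹) by group, i, e2, ← hn']
      group
    exact (mul_inv_eq_iff_eq_mul.1 this).symm
  · rw [inv_inv, ← e2, ← mul_assoc, ← mul_assoc, hs, one_mul, mul_assoc, hs, mul_one]

theorem dvd_free {Y : Set G} (hY : ∀ a ∈ A, ∀ y ∈ Y, a * y * a⁻¹ ∈ Y)
    (hf : ∀ a ∈ A, ∀ y ∈ Y, a * y = y * a → a = 1) : ♯A ∣ Y.ncard := by
  have : Finite (ConjAct G) := ‹Finite G›
  rw [← card_map_of_injective (f := (ConjAct.toConjAct (G := G)).toMonoidHom)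
    ConjAct.toConjAct.injective]
  refine H3.card_dvd_ncard_of_free _ Y ?_ ?_
  · rintro _ ⟨a, ha, rfl⟩ y hy
    exact hY a ha y hy
  · rintro _ ⟨a, ha, rfl⟩ y hy e
    rw [hf a ha y hy (mul_inv_eq_iff_eq_mul.1 e), map_one]

end grp

section perm
variable {Ω : Type} [Fintype Ω] [DecidableEq Ω] {σ τ π ρ : Perm Ω}

theorem inter_ge (s t : Finset Ω) : s.card + t.card ≤ (s ∩ t).card + Fintype.card Ω := by
  have := Finset.card_union_add_card_inter s t
  have := Finset.card_le_univ (s ∪ t)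
  omega

theorem six_dvd (h1 : σ ^ 3 = 1) (h2 : π * π = 1) (hc : π * σ = σ * π) :
    6 ∣ (σ.support ∩ π.support).card := by
  have a := dvd_inter Nat.prime_three h1 hc
  have b := dvd_inter Nat.prime_two (by rwa [pow_two]) hc.symm
  rw [Finset.inter_comm] at b
  omega

theorem three_dvd (h1 : σ ^ 3 = 1) : 3 ∣ σ.support.card := by
  have := dvd_inter Nat.prime_three h1 rfl
  rwa [Finset.inter_self] at this

/-- a permutation commuting with a `3`-cycle acts on its support as a power of it -/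
theorem cent3 (h : σ.IsThreeCycle) (hc : π * σ = σ * π) : ∃ i : ℕ, FixS σ ((σ ^ i)⁻¹ * π) := by
  obtain ⟨a, ha⟩ : σ.support.Nonempty := Finset.card_pos.1 (by rw [h.card_support]; decide)
  have e := h.support_eq_iff_mem_support.2 ha
  have m := apply_mem_support_of_commute hc ha
  have k : ∀ i : ℕ, π a = (σ ^ i) a → FixS σ ((σ ^ i)⁻¹ * π) := fun i q p hp => by
    have c := app_comm (Commute.refl σ |>.pow_left i).eq
    have d := app_comm hc
    rw [← mem_support, e] at hp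
    rw [Perm.mul_apply, Perm.inv_eq_iff_eq]
    simp only [Finset.mem_insert, Finset.mem_singleton] at hp
    rcases hp with rfl | rfl | rfl
    · exact q
    · rw [d, c, q]
    · rw [d, d, c, c, q]
  rw [e] at m
  simp only [Finset.mem_insert, Finset.mem_singleton] at m
  rcases m with m | m | m
  · exact ⟨0, k 0 m⟩
  · exact ⟨1, k 1 m⟩
  · exact ⟨2, k 2 m⟩

theorem nine_dvd {H : Subgroup (Perm Ω)} {m : ℕ} (h : ♯H = 9)
    (h2 : ∀ σ ∈ H, σ ≠ 1 → σ.support.card = m) : 9 ∣ 8 * m := by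
  classical
  have := Fintype.ofFinite H
  have := Fintype.ofFinite (Quotient (MulAction.orbitRel H Ω))
  have e := MulAction.sum_card_fixedBy_eq_card_orbits_mul_card_group H Ω
  have e1 : ∀ g : H, Fintype.card (MulAction.fixedBy Ω g) + (g : Perm Ω).support.card =
      Fintype.card Ω := fun g => by
    rw [← Finset.card_add_card_compl (g : Perm Ω).support, add_comm, Fintype.card_subtype]
    congr 2
    ext p
    simp [Subgroup.smul_def]
  have e2 : ∑ g : H, (g : Perm Ω).support.card = 8 * m := by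
    rw [← Finset.add_sum_erase _ _ (Finset.mem_univ 1), Finset.sum_congr rfl fun (g : H) hg =>
      h2 g g.2 fun q => Finset.ne_of_mem_erase hg (Subtype.ext q)]
    simp [← Nat.card_eq_fintype_card, h]
  have e3 := Finset.sum_congr (rfl : (Finset.univ : Finset H) = _) fun g _ => e1 g
  rw [Finset.sum_add_distrib, e, e2, Finset.sum_const, Finset.card_univ, ← Nat.card_eq_fintype_card
    (α := H), h, smul_eq_mul] at e3
  omega

end perm

variable {G Ω : Type} [Group G] [Finite G] [Fintype Ω] [DecidableEq Ω]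
  {z t t' a b c e g x y : G} {f f' : G → Perm Ω} {σ τ π : Perm Ω} {M W : Subgroup G}

namespace DC0
variable (h : DC0 z f)
include h

theorem mem_up {H : Subgroup (Perm Ω)} : a ∈ up h.hom H ↔ a ∈ 𝒞₁ z ∧ f a ∈ H :=
  H8.mem_up.trans ⟨fun ⟨q1, q2⟩ => ⟨q1, q2⟩, fun ⟨q1, q2⟩ => ⟨q1, q2⟩⟩

theorem mem_dn (ha : Lf z f a σ) (hm : a ∈ M) : σ ∈ down h.hom M := ⟨⟨a, ha.mem⟩, hm, ha.eq⟩

theorem of_dn (hm : σ ∈ down h.hom M) : ∃ a ∈ M, Lf z f a σ :=
  let ⟨a, q1, q2⟩ := hm; ⟨a, q1, a.2, q2⟩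

theorem up_bot : up h.hom ⊥ = zpowers z := le_antisymm
  (fun a ha => ((h.ker a (h.mem_up.1 ha).1).1 (h.mem_up.1 ha).2).elim (fun e => e ▸ one_mem _)
    fun e => e ▸ mem_zpowers _) (zpowers_le.2 (h.mem_up.2 ⟨h.lz.mem, h.lz.eq⟩))

theorem card_dn (h1 : W ≤ 𝒞₁ z) (h2 : z ∉ W) : ♯(down h.hom W) = ♯W :=
  card_down_eq h1 (h.up_bot ▸ inf_eq_bot_of_prime (by rw [card_zpow, h.ivo.orderOf]; decide)
    fun q => h2 (q (mem_zpowers z)))

theorem card_dvd_fac (h1 : W ≤ 𝒞₁ z) (h2 : z ∉ W) : ♯W ∣ (Fintype.card Ω).factorial := by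
  rw [← h.card_dn h1 h2, ← Fintype.card_perm, ← Nat.card_eq_fintype_card]
  exact card_subgroup_dvd_card _

theorem big_of (hy : y ∈ 𝒞₁ z) (ho : Odd (orderOf y)) (h1 : Perm.sign σ = 1) (h2 : σ * σ = 1)
    (h3 : σ ≠ 1) (hc : σ * f y = f y * σ) : Big y := by
  obtain ⟨a, ha⟩ := h.ex h1
  have m := mem_cent1.2 (h.comm_odd ha (lf hy) ho hc)
  have a1 : a ≠ 1 := fun e => h3 (ha.uq (e ▸ h.one))
  rcases h.of_one ((h.mul ha ha).cast h2) with e | e
  · exact rk2_dvd ⟨a, m, z, mem_cent1_comm.1 hy, ⟨a1, e⟩, h.ivo, fun e => h3 (ha.uq (e ▸ h.lz)),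
      ha.cz⟩
  · have : orderOf a = 2 ^ (1 + 1) := orderOf_eq_prime_pow (by rw [pow_one, pow_two, e]; exact h.ivo.1)
      (by rw [show 2 ^ (1 + 1) = 2 * 2 from rfl, pow_mul, pow_two a, e, pow_two, h.zz])
    exact (show 4 ∣ orderOf a from this ▸ dvd_rfl).trans (orderOf_dvd m)

theorem conj3C (h1 : Lf z f x σ) (h2 : Lf z f y τ) (o1 : x ^ 3 = 1) (o2 : y ^ 3 = 1)
    (e : σ.support.card = τ.support.card) (h3 : σ.support.card + 2 ≤ Fintype.card Ω) :
    ∃ c ∈ 𝒞₁ z, c * x * c⁻¹ = y := by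
  obtain ⟨π, p1, p2⟩ := conj3 ((h.pow h1 3).uq (o1 ▸ h.one)) ((h.pow h2 3).uq (o2 ▸ h.one)) e h3
  obtain ⟨c, hc⟩ := h.ex p1
  exact ⟨c, hc.mem, h.conj_eq3 hc h1 h2 o1 o2 p2⟩

/-- the order of the centralizer of the lift of a `3`-cycle -/
theorem card_K (hx : Lf z f x σ) (h3 : σ.IsThreeCycle) (hn : 5 ≤ Fintype.card Ω) :
    (Fintype.card Ω - 3).factorial ∣ ♯(𝒞₁ x ⊓ 𝒞₁ z) := by
  have e : σ.supportᶜ.card = Fintype.card Ω - 3 := by rw [Finset.card_compl, h3.card_support]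
  rw [← e, ← card_altOn (by omega), ← h.ivo.orderOf, ← card_zpow, ← h.up_bot,
    ← card_up (H := 𝒞₁ z) fun π hπ => let ⟨a, q⟩ := h.ex (mem_altOn.1 hπ).1; h.mem_dn q q.mem]
  refine card_dvd fun a ha => ⟨mem_cent1.2 ?_, (h.mem_up.1 ha).1⟩
  exact h.comm_disj (lf (h.mem_up.1 ha).1) hx (mem_altOn.1 (h.mem_up.1 ha).2).2
    fun p hp => notMem_support.1 (Finset.mem_compl.1 hp)

end DC0

/-- normal subgroups of the centralizer in `C(z)` of the lift of a `3`-cycle -/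
theorem DCv.lemS (h : DCv z f) (hx : Lf z f x σ) (o : x ^ 3 = 1) (h3 : σ.IsThreeCycle)
    (hn : 8 ≤ Fintype.card Ω) (hM : M ⊴ 𝒞₁ x ⊓ 𝒞₁ z) (hz : z ∉ M) : M ≤ zpowers x := by
  have e : 5 ≤ σ.supportᶜ.card := by rw [Finset.card_compl, h3.card_support]; omega
  have xK : zpowers x ≤ 𝒞₁ x ⊓ 𝒞₁ z := zpowers_le.2 ⟨self_mem_cent1 x, hx.mem⟩
  have cx : ∀ a ∈ 𝒞₁ x ⊓ 𝒞₁ z, a ∈ 𝒩 (zpowers x) := fun a ha =>
    cent_le_norm _ (cent_zpowers x ▸ ha.1)
  have n1 : M ⊔ zpowers x ⊴ 𝒞₁ x ⊓ 𝒞₁ z := hM.sup ⟨xK, cx⟩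
  have z1 : z ∉ M ⊔ zpowers x := fun q => by
    obtain ⟨m, hm, y, hy, e⟩ := (mem_sup_l (xK.trans hM.norm)).1 q
    have c : Commute m y := mem_cent1.1 (cent1_le_of_mem_zpowers hy (hM.le hm).1)
    have y3 : y ^ 3 = 1 := (elem_zpowers o).pow hy
    have := pow_mem hm 3
    rw [← mul_one (m ^ 3), ← y3, ← c.mul_pow, e, pow_succ, pow_two, h.zz, one_mul] at this
    exact hz this
  have hs := isSimpleGroup_altOn e
  have lift : ∀ π ∈ altOn σ.supportᶜ, ∃ a ∈ 𝒞₁ x ⊓ 𝒞₁ z, Lf z f a π := fun π hπ => by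
    obtain ⟨a, q⟩ := h.ex (mem_altOn.1 hπ).1
    exact ⟨a, ⟨mem_cent1.2 (h.comm_disj q hx (mem_altOn.1 hπ).2
      fun p hp => notMem_support.1 (Finset.mem_compl.1 hp)), q.mem⟩, q⟩
  have nn : ((down h.hom (M ⊔ zpowers x)).subgroupOf (altOn σ.supportᶜ)).Normal :=
    normal_sub fun π hπ => by
      obtain ⟨a, q1, q2⟩ := lift π hπ
      exact down_le_norm h.hom n1.norm (h.mem_dn q2 q1)
  rcases hs.eq_bot_or_eq_top_of_normal _ nn with q | q
  · intro m hm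
    obtain ⟨i, hi⟩ := cent3 h3 (h.comm_f (lf (hM.le hm).2) hx (mem_cent1.1 (hM.le hm).1))
    have l := h.mul (h.inv (h.pow hx i)) (lf (hM.le hm).2)
    have m1 := mul_mem (inv_mem (pow_mem (mem_sup_right (S := M) (mem_zpowers x)) i))
      (mem_sup_left hm)
    have : (⟨_, mem_altOn'.2 ⟨h.sign l, fun p hp => hi p (by simpa using hp)⟩⟩ :
        altOn σ.supportᶜ) = 1 := eq_one_of_mem q (h.mem_dn l m1)
    rcases h.of_one (l.cast (congrArg Subtype.val this)) with e | e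
    · exact inv_mul_eq_one.1 e ▸ npow_mem_zpowers x i
    · exact absurd (e ▸ m1) z1
  · obtain ⟨a, b, c, d, ha, hb, hc, hd, ne⟩ := Finset.three_lt_card_iff.1
      (show 3 < σ.supportᶜ.card by omega)
    obtain ⟨m, hm, l⟩ := h.of_dn (subgroupOf_eq_top.1 q
      (swap_mul_swap_mem_altOn ha hb hc hd ne.1 ne.2.2.2.2.2))
    exact absurd (h.ss (by simp; grind) l ▸ mul_mem hm hm) z1

/-- the degree is `9` or `10`, and `z` is conjugate to another involution of `C(z)` -/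
structure D9 (z : G) (f : G → Perm Ω) : Prop extends DCv z f where
  ge : 9 ≤ Fintype.card Ω
  le : Fintype.card Ω ≤ 10
  ex' : ∃ g, g * z * g⁻¹ ∈ 𝒞₁ z ∧ g * z * g⁻¹ ≠ z

namespace D9
variable (h : D9 z f)
include h

theorem cj (g : G) : D9 (g * z * g⁻¹) fun a => f (g⁻¹ * a * g) := by
  obtain ⟨k, q1, q2⟩ := h.ex'
  have e : g * k * g⁻¹ * (g * z * g⁻¹) * (g * k * g⁻¹)⁻¹ = g * (k * z * k⁻¹) * g⁻¹ := by group
  exact ⟨h.toDCv.cj g, h.ge, h.le, g * k * g⁻¹, by rw [e, ← cj_cent1]; exact conj_mem_cj q1,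
    by rw [e]; simpa using q2⟩

theorem supp_eq (ht : t ∈ 𝒞₁ z) (h1 : Ivo t) (h2 : t ≠ z) : (f t).support.card = 8 := by
  have := h.supp8 ht h1 h2
  have := four_dvd (h.ff ht h1.2) (h.sgn t ht)
  have := Finset.card_le_univ (f t).support
  have := h.le
  omega

theorem sq8 (ha : Lf z f a σ) (h1 : σ * σ = 1) (h2 : σ.support.card = 8) : a * a = 1 := by
  obtain ⟨k, q1, q2⟩ := h.ex'
  have i := h.ivo.conj k
  obtain ⟨π, p1, p2⟩ := conj2 (h.ff q1 i.2) h1 ((h.supp_eq q1 i q2).trans h2.symm)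
  obtain ⟨g, hg⟩ := h.ex p1
  rw [h.sq_eq ha ((h.conj hg (lf q1)).cast p2)]
  exact (i.conj g).2

theorem ivo8 (ha : Lf z f a σ) (h1 : σ * σ = 1) (h2 : σ.support.card = 8) : Ivo a ∧ a ≠ z :=
  ⟨⟨fun e => by rw [ha.uq (e ▸ h.one)] at h2; simp at h2, h.sq8 ha h1 h2⟩,
    fun e => by subst e; rw [ha.uq h.lz] at h2; simp at h2⟩

theorem ex_flip (ht : t ∈ 𝒞₁ z) (h1 : Ivo t) (h2 : t ≠ z) : ∃ e ∈ 𝒞₁ z, e * t * e⁻¹ = t * z := by
  have c1 := h.supp_eq ht h1 h2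
  have t2 := h.ff ht h1.2
  have t3 := app_app t2
  obtain ⟨p, p1, -⟩ := exists_notMem (s := (f t).support) (t := ∅) (by rw [Finset.card_empty]; omega)
  obtain ⟨q, q1, q2⟩ := exists_notMem (s := (f t).support) (t := {p, f t p})
    (Finset.card_le_two.trans_lt (by omega))
  simp only [Finset.mem_insert, Finset.mem_singleton, not_or, mem_support] at p1 q1 q2
  have nd : [p, q, f t p, f t q].Nodup := by simp; grind
  obtain ⟨e, he⟩ := h.ex (σ := swap p q * swap (f t p) (f t q)) (by simp [Ne.symm q2.1])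
  refine ⟨e, he.mem, flip (h.ss nd he) h.zz h1.2 (h.sq8 (h.mul he (lf ht)) ?_ ?_)⟩
  · ext x
    simp only [Perm.mul_apply, Perm.one_apply]
    grind (splits := 40)
  · rw [← c1]
    congr 1
    ext x
    simp only [mem_support, Perm.mul_apply]
    grind

theorem conjC (ht : t ∈ 𝒞₁ z) (h1 : Ivo t) (h2 : t ≠ z) (ht' : t' ∈ 𝒞₁ z) (h1' : Ivo t')
    (h2' : t' ≠ z) : ∃ c ∈ 𝒞₁ z, c * t * c⁻¹ = t' := by
  obtain ⟨π, p1, p2⟩ := conj2 (h.ff ht h1.2) (h.ff ht' h1'.2)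
    ((h.supp_eq ht h1 h2).trans (h.supp_eq ht' h1' h2').symm)
  obtain ⟨g, hg⟩ := h.ex p1
  rcases h.eq_or ((h.conj hg (lf ht)).cast p2) (lf ht') with e | e
  · exact ⟨g, hg.mem, e⟩
  · obtain ⟨k, q1, q2⟩ := h.ex_flip ht' h1' h2'
    exact ⟨k⁻¹ * g, mul_mem (inv_mem q1) hg.mem, by
      rw [show k⁻¹ * g * t * (k⁻¹ * g)⁻¹ = k⁻¹ * (g * t * g⁻¹) * k by group, e, ← q2]; group⟩

theorem conjG (ht : t ∈ 𝒞₁ z) (h1 : Ivo t) : ∃ g, g * z * g⁻¹ = t := by
  by_cases e : t = z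
  · exact ⟨1, by simp [e]⟩
  obtain ⟨k, q1, q2⟩ := h.ex'
  obtain ⟨c, -, q⟩ := h.conjC q1 (h.ivo.conj k) q2 ht h1 e
  exact ⟨c * k, by rw [← q]; group⟩

theorem at' (ht : t ∈ 𝒞₁ z) (h1 : Ivo t) : ∃ f' : G → Perm Ω, D9 t f' :=
  let ⟨g, e⟩ := h.conjG ht h1; ⟨_, e ▸ h.cj g⟩

theorem rk6 (hy : y ∈ 𝒞₁ z) (o : y ^ 3 = 1) (h1 : y ≠ 1) (hr : Rk2 (𝒞₁ y)) :
    (f y).support.card = 6 := by
  obtain ⟨t, t1, t2, t3, t4⟩ := rk_of h.ivo (mem_cent1_comm.1 hy) hr
  have o' := (h.pow (lf hy) 3).uq (o ▸ h.one)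
  have := six_dvd o' (h.ff t4 t2.2) (h.comm_f (lf t4) (lf hy) (mem_cent1.1 t1))
  have := three_dvd o'
  have := inter_ge (f y).support (f t).support
  have := h.supp_eq t4 t2 t3
  have := h.le
  have := Finset.card_le_card (Finset.inter_subset_left (s₁ := (f y).support) (s₂ := (f t).support))
  have := Finset.card_le_card (Finset.inter_subset_right (s₁ := (f y).support) (s₂ := (f t).support))
  have : (f y).support.card ≠ 0 := fun q => h1 (h.eq3 (lf hy) (h.one.cast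
    (support_eq_empty_iff.1 (Finset.card_eq_zero.1 q)).symm) o (one_pow 3))
  omega

theorem nbig (hy : y ∈ 𝒞₁ z) (o : y ^ 3 = 1) (h9 : (f y).support.card = 9) : ¬ Big y := by
  have o' := (h.pow (lf hy) 3).uq (o ▸ h.one)
  have zy := mem_cent1_comm.1 hy
  have s : IsSyl 2 (zpowers z) (𝒞₁ y) := isSyl_of_maximal (zpowers_le.2 zy) (card_zp2 h.zz)
    fun Q q1 q2 q3 => by_contra fun q4 => by
      have l := lt_inf_normalizer q1 (lt_of_le_not_ge q2 q4)
      obtain ⟨a, a1, a2, a3⟩ := exists_pow_mem_of_dvd_relIndex (p := 2) (N := zpowers z)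
        (H := Q ⊓ 𝒩 (zpowers z)) inf_le_right
        (dvd_relIndex_of_not_le (q1.to_le inf_le_left) l.not_ge)
      have az : a ∈ 𝒞₁ z := mem_cent1.2 (mul_inv_eq_iff_eq_mul.1
        ((mem_zp2 h.zz (conj_mem_of_norm a1.2 (mem_zpowers z))).resolve_left (h.ivo.conj a).1))
      have a4 : f a * f a = 1 := by
        rw [← h.mul' _ az _ az, ← pow_two]
        exact (h.mem_up.1 (h.up_bot ▸ a3)).2
      have := six_dvd o' a4 (h.comm_f (lf az) (lf hy) (mem_cent1.1 (q3 a1.1)))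
      have := four_dvd a4 (h.sgn a az)
      have := inter_ge (f y).support (f a).support
      have := h.le
      have := Finset.card_le_univ (f a).support
      have := Finset.card_le_card
        (Finset.inter_subset_right (s₁ := (f y).support) (s₂ := (f a).support))
      have : (f a).support.card ≠ 0 := fun q => a2 (h.up_bot ▸ h.mem_up.2
        ⟨az, support_eq_empty_iff.1 (Finset.card_eq_zero.1 q)⟩)
      have : (f a).support.card = 4 ∨ (f a).support.card = 8 := by omega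
      omega
  intro q
  have := card_mul_ri s.le
  rw [card_zpow, h.ivo.orderOf] at this
  have := s.not_dvd
  rw [Big] at q
  omega

theorem supp3 (hy : y ∈ 𝒞₁ z) (o : y ^ 3 = 1) (h1 : y ≠ 1) :
    (f y).support.card = 3 ∨ (f y).support.card = 6 ∨ (f y).support.card = 9 := by
  have := three_dvd ((h.pow (lf hy) 3).uq (o ▸ h.one))
  have := h.le
  have := Finset.card_le_univ (f y).support
  have : (f y).support.card ≠ 0 := fun q => h1 (h.eq3 (lf hy) (h.one.cast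
    (support_eq_empty_iff.1 (Finset.card_eq_zero.1 q)).symm) o (one_pow 3))
  omega

theorem nrk (hx : Lf z f x σ) (o : x ^ 3 = 1) (h3 : σ.IsThreeCycle) : ¬ Rk2 (𝒞₁ x) := fun q => by
  have := h.rk6 hx.mem o (fun e => h3.ne_one (hx.uq (e ▸ h.one))) q
  rw [hx.eq, h3.card_support] at this
  omega

end D9

end Cfsg.H2.DC
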