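import Cfsg.Agent.H2.DC3

/-! Degrees `9` and `10`: a frame of three commuting lifts of `3`-cycles. -/

set_option autoImplicit false
set_option linter.unusedSectionVars false

namespace Cfsg.H2.DC

open Subgroup Cfsg.L0 Cfsg.H8 Cfsg.FT Cfsg.BS Cfsg.BS.R Equiv Equiv.Perm
open scoped commutatorElement

section perm
variable {Ω : Type} [Fintype Ω] [DecidableEq Ω] {σ τ π ρ : Perm Ω}

/-- the cycle `(a b c)` -/
def cy (a b c : Ω) : Perm Ω := swap a c * swap a b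

theorem cy_conj (π : Perm Ω) (a b c : Ω) : π * cy a b c * π⁻¹ = cy (π a) (π b) (π c) := by
  rw [cy, cy, swap_apply_apply, swap_apply_apply]; group

theorem FixS.inv (h : FixS σ π) : FixS σ π⁻¹ := fun p hp => Perm.inv_eq_iff_eq.2 (h p hp).symm

theorem FixS.pow (h : FixS σ π) (n : ℕ) : FixS σ (π ^ n) := fun p hp => pow_apply_eq_self_of_apply_eq_self (h p hp) n

theorem alt3 (h : σ.IsThreeCycle) (h1 : sign ρ = 1) (h2 : ρ.support ⊆ σ.support) : ρ ∈ zpowers σ := by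
  have := card_altOn (s := σ.support) (by rw [h.card_support]; decide)
  rw [h.card_support] at this
  rw [eq_of_card_le (zpowers_le.2 (mem_altOn.2 ⟨h.sign, subset_rfl⟩)) (by
    rw [card_zpow, h.orderOf]; simp only [Nat.factorial] at this; omega)]
  exact mem_altOn.2 ⟨h1, h2⟩

end perm

section
variable (k : ℕ)
def c1 : Perm (Fin (k + 9)) := cy 0 1 2
def c2 : Perm (Fin (k + 9)) := cy 3 4 5
def c3 : Perm (Fin (k + 9)) := cy 6 7 8
def tb : Perm (Fin (k + 9)) := swap 0 1 * swap 3 6 * swap 4 7 * swap 5 8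
def sb : Perm (Fin (k + 9)) := swap 3 4 * swap 6 7
end

variable {G : Type} [Group G] [Finite G] {k : ℕ} {z t a b c e g x y x1 x2 x3 : G}
  {f : G → Perm (Fin (k + 9))} {σ τ π : Perm (Fin (k + 9))} {M W : Subgroup G}

theorem D9.hk (h : D9 z f) : k = 0 ∨ k = 1 := by
  have := h.le
  rw [Fintype.card_fin] at this
  omega

/-- lifts of three disjoint `3`-cycles and of an involution -/
structure Fr (z : G) (f : G → Perm (Fin (k + 9))) (x1 x2 x3 t : G) : Prop extends D9 z f where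
  l1 : Lf z f x1 (c1 k)
  l2 : Lf z f x2 (c2 k)
  l3 : Lf z f x3 (c3 k)
  o1 : x1 ^ 3 = 1
  o2 : x2 ^ 3 = 1
  o3 : x3 ^ 3 = 1
  lt : Lf z f t (tb k)

theorem D9.fr (h : D9 z f) : ∃ x1 x2 x3 t, Fr z f x1 x2 x3 t := by
  obtain ⟨x1, a1, b1⟩ := h.ex3 (σ := c1 k) (by rcases h.hk with rfl | rfl <;> decide +kernel)
    (by rcases h.hk with rfl | rfl <;> decide +kernel)
  obtain ⟨x2, a2, b2⟩ := h.ex3 (σ := c2 k) (by rcases h.hk with rfl | rfl <;> decide +kernel)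
    (by rcases h.hk with rfl | rfl <;> decide +kernel)
  obtain ⟨x3, a3, b3⟩ := h.ex3 (σ := c3 k) (by rcases h.hk with rfl | rfl <;> decide +kernel)
    (by rcases h.hk with rfl | rfl <;> decide +kernel)
  obtain ⟨t, a4⟩ := h.ex (σ := tb k) (by rcases h.hk with rfl | rfl <;> decide +kernel)
  exact ⟨x1, x2, x3, t, h, a1, a2, a3, b1, b2, b3, a4⟩

/-- the elementary abelian group of the frame -/
def AA (x1 x2 x3 : G) : Subgroup G := zpowers x1 ⊔ zpowers x2 ⊔ zpowers x3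

omit [Finite G] in
theorem m1 : x1 ∈ AA x1 x2 x3 := mem_sup_left (mem_sup_left (mem_zpowers _))
omit [Finite G] in
theorem m2 : x2 ∈ AA x1 x2 x3 := mem_sup_left (mem_sup_right (mem_zpowers _))
omit [Finite G] in
theorem m3 : x3 ∈ AA x1 x2 x3 := mem_sup_right (mem_zpowers _)
omit [Finite G] in
theorem AA_le (h1 : x1 ∈ M) (h2 : x2 ∈ M) (h3 : x3 ∈ M) : AA x1 x2 x3 ≤ M :=
  sup_le (sup_le (zpowers_le.2 h1) (zpowers_le.2 h2)) (zpowers_le.2 h3)

theorem card3 (o : x ^ 3 = 1) (h : x ≠ 1) : ♯(zpowers x) = 3 := by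
  rw [card_zpow, orderOf_eq_prime o h]

namespace Fr
variable (h : Fr z f x1 x2 x3 t)
include h

theorem hk : k = 0 ∨ k = 1 := h.toD9.hk
theorem t1 : (c1 k).IsThreeCycle :=
  card_support_eq_three_iff.1 (by rcases h.hk with rfl | rfl <;> decide +kernel)
theorem t2 : (c2 k).IsThreeCycle :=
  card_support_eq_three_iff.1 (by rcases h.hk with rfl | rfl <;> decide +kernel)
theorem t3 : (c3 k).IsThreeCycle :=
  card_support_eq_three_iff.1 (by rcases h.hk with rfl | rfl <;> decide +kernel)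
theorem n1 : x1 ≠ 1 := fun e => h.t1.ne_one (h.l1.uq (e ▸ h.one))
theorem n2 : x2 ≠ 1 := fun e => h.t2.ne_one (h.l2.uq (e ▸ h.one))
theorem n3 : x3 ≠ 1 := fun e => h.t3.ne_one (h.l3.uq (e ▸ h.one))
theorem c12 : x1 * x2 = x2 * x1 :=
  h.comm3 h.l1 h.l2 h.o2 (by rcases h.hk with rfl | rfl <;> decide +kernel)
theorem c13 : x1 * x3 = x3 * x1 :=
  h.comm3 h.l1 h.l3 h.o3 (by rcases h.hk with rfl | rfl <;> decide +kernel)
theorem c23 : x2 * x3 = x3 * x2 :=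
  h.comm3 h.l2 h.l3 h.o3 (by rcases h.hk with rfl | rfl <;> decide +kernel)
theorem it : Ivo t ∧ t ≠ z := h.ivo8 h.lt (by rcases h.hk with rfl | rfl <;> decide +kernel)
  (by rcases h.hk with rfl | rfl <;> decide +kernel)
theorem lb : Lf z f (x2 * x3) (c2 k * c3 k) := h.mul h.l2 h.l3
theorem ob : (x2 * x3) ^ 3 = 1 := by
  rw [(show Commute x2 x3 from h.c23).mul_pow, h.o2, h.o3, one_mul]
theorem nb : x2 * x3 ≠ 1 := fun e =>
  absurd (h.lb.uq (e ▸ h.one)) (by rcases h.hk with rfl | rfl <;> decide +kernel)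
theorem tb' : t * (x2 * x3) = x2 * x3 * t :=
  h.comm3 h.lt h.lb h.ob (by rcases h.hk with rfl | rfl <;> decide +kernel)
theorem tx1 : t * x1 * t⁻¹ = x1⁻¹ := h.conj_eq3 h.lt h.l1 (h.inv h.l1) h.o1
  (by rw [inv_pow, h.o1, inv_one]) (by rcases h.hk with rfl | rfl <;> decide +kernel)
theorem tx2 : t * x2 * t⁻¹ = x3 :=
  h.conj_eq3 h.lt h.l2 h.l3 h.o2 h.o3 (by rcases h.hk with rfl | rfl <;> decide +kernel)
theorem tx3 : t * x3 * t⁻¹ = x2 :=
  h.conj_eq3 h.lt h.l3 h.l2 h.o3 h.o2 (by rcases h.hk with rfl | rfl <;> decide +kernel)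

theorem AC : AA x1 x2 x3 ≤ 𝒞₁ z := AA_le h.l1.mem h.l2.mem h.l3.mem

theorem elA : Elem 3 (AA x1 x2 x3) :=
  ((elem_zpowers h.o1).sup (elem_zpowers h.o2)
    (zpowers_le.2 (cent_zpowers x2 ▸ mem_cent1.2 h.c12))).sup (elem_zpowers h.o3)
    (cent_zpowers x3 ▸ sup_le (zpowers_le.2 (mem_cent1.2 h.c13)) (zpowers_le.2 (mem_cent1.2 h.c23)))

theorem n21 : x2 ∉ zpowers x1 := fun q => absurd (h.l2.eq ▸ (h.mem_up.1
  ((zpowers_le (H := up h.hom (MulAction.stabilizer _ (3 : Fin (k + 9))))).2 (h.mem_up.2 ⟨h.l1.mem,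
    h.l1.eq ▸ (by rcases h.hk with rfl | rfl <;> decide +kernel : c1 k 3 = 3)⟩) q)).2 : c2 k 3 = 3)
  (by rcases h.hk with rfl | rfl <;> decide +kernel)

theorem n312 : x3 ∉ zpowers x1 ⊔ zpowers x2 := fun q => absurd (h.l3.eq ▸ (h.mem_up.1
  (sup_le ((zpowers_le (H := up h.hom (MulAction.stabilizer _ (6 : Fin (k + 9))))).2
    (h.mem_up.2 ⟨h.l1.mem, h.l1.eq ▸ (by rcases h.hk with rfl | rfl <;> decide +kernel : c1 k 6 = 6)⟩))
    (zpowers_le.2 (h.mem_up.2 ⟨h.l2.mem,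
      h.l2.eq ▸ (by rcases h.hk with rfl | rfl <;> decide +kernel : c2 k 6 = 6)⟩)) q)).2 : c3 k 6 = 6)
  (by rcases h.hk with rfl | rfl <;> decide +kernel)

theorem cardA : ♯(AA x1 x2 x3) = 27 := by
  have a := h.elA.abel
  rw [AA] at a ⊢
  rw [card_sup_of_inf (le_sup_right.trans (a.le_norm le_sup_left)) (by
    rw [inf_comm]; exact inf_eq_bot_of_prime (by rw [card3 h.o3 h.n3]; decide)
      fun q => h.n312 (q (mem_zpowers _))),
    card_sup_of_inf ((le_sup_right.trans le_sup_left).trans (a.le_norm (le_sup_left.trans le_sup_left)))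
      (inf_comm (zpowers x2) _ ▸ inf_eq_bot_of_prime (by rw [card3 h.o2 h.n2]; decide)
        (fun q => h.n21 (q (mem_zpowers _)))), card3 h.o1 h.n1, card3 h.o2 h.n2, card3 h.o3 h.n3]

theorem red23 (hg : g ∈ 𝒞₁ z) (h2 : g * x2 = x2 * g) (h3 : g * x3 = x3 * g) :
    ∃ i j : ℕ, FixS (c2 k) ((c3 k ^ j)⁻¹ * ((c2 k ^ i)⁻¹ * f g)) ∧
      FixS (c3 k) ((c3 k ^ j)⁻¹ * ((c2 k ^ i)⁻¹ * f g)) := by
  obtain ⟨i, hi⟩ := cent3 h.t2 (h.comm_f (lf hg) h.l2 h2)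
  obtain ⟨j, hj⟩ := cent3 h.t3 (π := (c2 k ^ i)⁻¹ * f g) (Commute.mul_left
    ((show Commute (c2 k) (c3 k) from h.comm_f h.l2 h.l3 h.c23).pow_left i).inv_left
    (h.comm_f (lf hg) h.l3 h3))
  exact ⟨i, j, ((show FixS (c2 k) (c3 k) by
    unfold FixS; rcases h.hk with rfl | rfl <;> decide +kernel).pow j).inv.mul hi, hj⟩

theorem centA (hg : g ∈ 𝒞₁ z) (ho : Odd (orderOf g)) (h1 : g * x1 = x1 * g) (h2 : g * x2 = x2 * g)
    (h3 : g * x3 = x3 * g) : g ∈ AA x1 x2 x3 := by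
  obtain ⟨i, hi⟩ := cent3 h.t1 (h.comm_f (lf hg) h.l1 h1)
  have l := h.mul (h.inv (h.pow h.l1 i)) (lf hg)
  obtain ⟨j, m, q2, q3⟩ := h.red23 l.mem (Commute.mul_left
    ((show Commute x1 x2 from h.c12).pow_left i).inv_left h2)
    (Commute.mul_left ((show Commute x1 x3 from h.c13).pow_left i).inv_left h3)
  rw [l.eq] at q2 q3
  have q1 := ((show FixS (c1 k) (c3 k) by
    unfold FixS; rcases h.hk with rfl | rfl <;> decide +kernel).pow m).inv.mul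
    (((show FixS (c1 k) (c2 k) by
      unfold FixS; rcases h.hk with rfl | rfl <;> decide +kernel).pow j).inv.mul hi)
  have u : ∀ p q : Fin (k + 9), c1 k p = p → c2 k p = p → c3 k p = p → c1 k q = q → c2 k q = q →
      c3 k q = q → p = q := by rcases h.hk with rfl | rfl <;> decide +kernel
  have e : (c3 k ^ m)⁻¹ * ((c2 k ^ j)⁻¹ * ((c1 k ^ i)⁻¹ * f g)) = 1 := by
    generalize (c3 k ^ m)⁻¹ * ((c2 k ^ j)⁻¹ * ((c1 k ^ i)⁻¹ * f g)) = ρ at q1 q2 q3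
    refine Equiv.ext fun p => by_contra fun q => ?_
    have q' : ρ (ρ p) ≠ ρ p := fun e => q (ρ.injective e)
    exact q (u _ _ (by_contra fun r => q' (q1 _ r)) (by_contra fun r => q' (q2 _ r))
      (by_contra fun r => q' (q3 _ r)) (by_contra fun r => q (q1 _ r)) (by_contra fun r => q (q2 _ r))
      (by_contra fun r => q (q3 _ r)))
  have m0 := mul_mem (mul_mem (pow_mem (m1 (x1 := x1)) i) (pow_mem (m2 (x2 := x2)) j))
    (pow_mem (m3 (x3 := x3)) m)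
  exact h.eq_of_odd ((h.mul (h.mul (h.pow h.l1 i) (h.pow h.l2 j)) (h.pow h.l3 m)).cast
    (by rw [inv_mul_eq_one, eq_inv_mul_iff_mul_eq, eq_inv_mul_iff_mul_eq] at e
        rw [← e, mul_assoc])) (lf hg) (odd3 (h.elA.pow m0)) ho ▸ m0

theorem cb23 (hg : g ∈ 𝒞₁ z) (ho : Odd (orderOf g)) (hc : g * (x2 * x3) = x2 * x3 * g) :
    g * x2 = x2 * g ∧ g * x3 = x3 * g := by
  have c := h.comm_f (lf hg) h.lb hc
  have d := app_comm c
  have u : ∀ a : Fin (k + 9), (c2 k * c3 k) a ≠ a →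
      cy a ((c2 k * c3 k) a) ((c2 k * c3 k) ((c2 k * c3 k) a)) = c2 k ∨
      cy a ((c2 k * c3 k) a) ((c2 k * c3 k) ((c2 k * c3 k) a)) = c3 k := by
    rcases h.hk with rfl | rfl <;> decide +kernel
  have e : c2 k = cy 3 ((c2 k * c3 k) 3) ((c2 k * c3 k) ((c2 k * c3 k) 3)) := by
    rcases h.hk with rfl | rfl <;> decide +kernel
  have := u (f g 3) (mem_support.1 (apply_mem_support_of_commute c (mem_support.2
    (by rcases h.hk with rfl | rfl <;> decide +kernel))))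
  rw [← d, ← d, ← cy_conj, ← e] at this
  have k2 : g * x2 = x2 * g := by
    rcases this with q | q
    · exact h.comm3 (lf hg) h.l2 h.o2 (mul_inv_eq_iff_eq_mul.1 q)
    · have e1 := h.conj_eq3 (lf hg) h.l2 h.l3 h.o2 h.o3 q
      have e2 : g * x3 * g⁻¹ = x2 := by
        rw [← mul_right_inj x3, ← h.c23, ← mul_inv_eq_iff_eq_mul.2 hc]
        nth_rewrite 1 [← e1]; group
      refine (commute_of_commute_sq ho (a := x2) ?_).symm
      show x2 * g ^ 2 = g ^ 2 * x2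
      rw [eq_comm, ← mul_inv_eq_iff_eq_mul]
      nth_rewrite 2 [← e2]
      rw [← e1, sq]; group
  exact ⟨k2, by rwa [← mul_assoc, k2, mul_assoc, mul_assoc, mul_right_inj] at hc⟩

theorem centb (h9 : k = 0) (hg : g ∈ 𝒞₁ z) (ho : Odd (orderOf g))
    (hc : g * (x2 * x3) = x2 * x3 * g) : g ∈ AA x1 x2 x3 := by
  obtain ⟨k2, k3⟩ := h.cb23 hg ho hc
  obtain ⟨i, j, q2, q3⟩ := h.red23 hg k2 k3
  have l := h.mul (h.inv (h.pow h.l3 j)) (h.mul (h.inv (h.pow h.l2 i)) (lf hg))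
  have u : ∀ p : Fin (k + 9), c2 k p = p → c3 k p = p → c1 k p ≠ p := by subst h9; decide +kernel
  have := h.comm3 l h.l1 h.o1 (mem_cent1.1 (zpowers_le.2 (self_mem_cent1 _) (alt3 h.t1 (h.sign l)
    fun p hp => mem_support.2 (u p (by_contra fun r => mem_support.1 hp (q2 _ r))
      (by_contra fun r => mem_support.1 hp (q3 _ r))))))
  refine h.centA hg ho (mem_cent1.1 ?_) k2 k3
  exact (mul_mem_cancel_left (inv_mem (pow_mem (mem_cent1.2 h.c12.symm) i))).1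
    ((mul_mem_cancel_left (inv_mem (pow_mem (mem_cent1.2 h.c13.symm) j))).1 (mem_cent1.2 this))

theorem rkV (h1 : y ∈ 𝒞₁ z) (h2 : y ∈ 𝒞₁ t) : Rk2 (𝒞₁ y) :=
  ⟨t, mem_cent1_comm.1 h2, z, mem_cent1_comm.1 h1, h.it.1, h.ivo, h.it.2, h.lt.cz⟩

theorem sylb : IsSyl 3 (zpowers (x2 * x3)) (𝒞₁ z ⊓ 𝒞₁ t) := by
  have pb := (elem_zpowers h.ob).pgroup
  refine isSyl_of_maximal (zpowers_le.2 ⟨h.lb.mem, mem_cent1.2 h.tb'.symm⟩) pb
    fun Q q1 q2 q3 => by_contra fun q4 => ?_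
  obtain ⟨g, g1, g2⟩ := SetLike.exists_of_lt (lt_inf_normalizer q1 (lt_of_le_not_ge q2 q4))
  have c := mem_cent1.1 (cent_zpowers (x2 * x3) ▸ cent_symm ((le_of_prime_of_inf_ne
    (by rw [card3 h.ob h.nb]; decide) (inf_cent_ne_bot_of_pgroup Nat.prime_three
      (q1.to_le inf_le_left) pb inf_le_right (ne_bot_of_mem (mem_zpowers _) h.nb)))) g1)
  have hg := (q3 g1.1).1
  obtain ⟨n, hn⟩ := isPGroup_iff_forall.1 q1 g g1.1
  obtain ⟨k2, -⟩ := h.cb23 hg (Odd.of_dvd_nat (Odd.pow (by decide)) (orderOf_dvd_of_pow_eq_one hn)) c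
  obtain ⟨i, hi⟩ := cent3 h.t2 (h.comm_f (lf hg) h.l2 k2)
  have m : ((x2 * x3) ^ i)⁻¹ * g ∈ Q := mul_mem (inv_mem (pow_mem (q2 (mem_zpowers _)) i)) g1.1
  have fx : FixS (c2 k) (f (((x2 * x3) ^ i)⁻¹ * g)) := by
    rw [(h.mul (h.inv (h.pow h.lb i)) (lf hg)).eq, (show Commute (c2 k) (c3 k) from
      h.comm_f h.l2 h.l3 h.c23).mul_pow, mul_inv_rev, mul_assoc]
    exact ((show FixS (c2 k) (c3 k) by
      unfold FixS; rcases h.hk with rfl | rfl <;> decide +kernel).pow i).inv.mul hi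
  obtain ⟨y, y1, y2⟩ := exists_orderOf_eq Nat.prime_three (dvd_card_of_pgroup Nat.prime_three
    (q1.to_le (zpowers_le.2 m)) (ne_bot_of_mem (mem_zpowers _)
      fun e => g2 (inv_mul_eq_one.1 e ▸ npow_mem_zpowers _ i)))
  have ym := q3 (zpowers_le.2 m y1)
  have s6 := h.rk6 ym.1 (y2 ▸ pow_orderOf_eq_one y) (fun e => by simp [e] at y2) (h.rkV ym.1 ym.2)
  obtain ⟨r, rfl⟩ := (mem_powers_iff_mem_zpowers.2 y1)
  have fy := fx.pow r
  rw [← (h.pow (lf (q3 m).1) r).eq] at fy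
  have d := app_comm (h.comm_f (lf ym.1) h.lt (mem_cent1.1 ym.2))
  have u : ∀ p : Fin (k + 9), c2 k p = p → c2 k (tb k p) = tb k p → p ∈ (c2 k * c3 k).supportᶜ := by
    rcases h.hk with rfl | rfl <;> decide +kernel
  have := Finset.card_le_card fun p (hp : p ∈ (f ((((x2 * x3) ^ i)⁻¹ * g) ^ r)).support) =>
    u p (by_contra fun q => mem_support.1 hp (fy _ q))
      (by_contra fun q => mem_support.1 hp ((tb k).injective ((d p).symm.trans (fy _ q))))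
  have e : (c2 k * c3 k).supportᶜ.card ≤ 4 := by rcases h.hk with rfl | rfl <;> decide +kernel
  exact absurd (s6 ▸ this.trans e) (by decide)

theorem card_le81 (h1 : W ≤ 𝒞₁ z) (h2 : IsPGroup 3 W) : ♯W ≤ 81 := by
  obtain ⟨n, hn⟩ := IsPGroup.iff_card.1 h2
  have := (h.card_dvd_fac h1 (h.ivo.not_mem (by rw [hn]; exact Odd.pow (by decide)))).trans
    (Nat.factorial_dvd_factorial h.le)
  rw [hn] at this ⊢
  by_contra q
  have : 5 ≤ n := by
    by_contra r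
    exact q ((Nat.pow_le_pow_right (by decide) (show n ≤ 4 by omega)))
  exact absurd ((pow_dvd_pow 3 this).trans ‹_›) (by decide)

theorem ab27 (h1 : W ≤ 𝒞₁ z) (h2 : IsPGroup 3 W) (h3 : Abel W) : ♯W ≤ 27 := by
  obtain ⟨n, hn⟩ := IsPGroup.iff_card.1 h2
  by_contra q
  have : 81 ≤ ♯W := by
    rw [hn] at q ⊢
    exact Nat.pow_le_pow_right (n := 3) (i := 4) (by decide) (by
      by_contra r
      exact q ((Nat.pow_le_pow_right (by decide) (show n ≤ 3 by omega))))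
  obtain ⟨P, p1⟩ := exists_isSyl 3 (𝒞₁ z)
  obtain ⟨c, hc, e⟩ := (p1.of_card_ge h2 h1 ((h.card_le81 p1.le p1.isPGroup).trans this)).exists_cj_le
    h.elA.pgroup h.AC
  rw [cj_le_iff] at e
  have a := h3.cj c⁻¹
  have := card_le fun g (hg : g ∈ L0.cj c⁻¹ W) => h.centA (cj_le_of_mem (inv_mem hc) h1 hg)
    (odd_of_mem (by rw [card_cj, hn]; exact Odd.pow (by decide)) hg) (a.comm hg (e m1))
    (a.comm hg (e m2)) (a.comm hg (e m3))
  rw [card_cj, h.cardA] at this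
  exact q this

theorem rk2_of6 (hy : y ∈ 𝒞₁ z) (o : y ^ 3 = 1) (h6 : (f y).support.card = 6) : Rk2 (𝒞₁ y) := by
  have e : (c2 k * c3 k).support.card = 6 := by rcases h.hk with rfl | rfl <;> decide +kernel
  obtain ⟨c, -, rfl⟩ := h.conj3C h.lb (lf hy) h.ob o (e.trans h6.symm) (by have := h.ge; omega)
  exact rk2_conj (h.rkV h.lb.mem (mem_cent1.2 h.tb'.symm)) c

theorem big1 : Big x1 := h.big_of (σ := sb k) h.l1.mem (odd3 h.o1)
  (by rcases h.hk with rfl | rfl <;> decide +kernel) (by rcases h.hk with rfl | rfl <;> decide +kernel)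
  (by rcases h.hk with rfl | rfl <;> decide +kernel)
  (by rw [h.l1.eq]; rcases h.hk with rfl | rfl <;> decide +kernel)

theorem conj1 (hy : y ∈ 𝒞₁ z) (o : y ^ 3 = 1) (h3 : (f y).support.card = 3) :
    ∃ c ∈ 𝒞₁ z, c * x1 * c⁻¹ = y :=
  h.conj3C h.l1 (lf hy) h.o1 o (h.t1.card_support.trans h3.symm)
    (by have := h.ge; have := h.t1.card_support; omega)

theorem big_of' (hy : y ∈ 𝒞₁ z) (o : y ^ 3 = 1) (h1 : y ≠ 1) (h9 : (f y).support.card ≠ 9) :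
    Big y := by
  rcases h.supp3 hy o h1 with q | q | q
  · obtain ⟨c, -, rfl⟩ := h.conj1 hy o q
    exact h.big1.conj c
  · exact rk2_dvd (h.rk2_of6 hy o q)
  · exact absurd q h9

/-- a conjugate of `x₁` in `C(z)` is a lift of a `3`-cycle -/
theorem fus1 (hy : g * x1 * g⁻¹ ∈ 𝒞₁ z) : ∃ c ∈ 𝒞₁ z, c * x1 * c⁻¹ = g * x1 * g⁻¹ := by
  have o : (g * x1 * g⁻¹) ^ 3 = 1 := by rw [conj_pow, h.o1]; group
  refine h.conj1 hy o ?_
  rcases h.supp3 hy o (by simpa using h.n1) with q | q | q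
  · exact q
  · exact absurd (conj_back g x1 ▸ rk2_conj (h.rk2_of6 hy o q) g⁻¹) (h.nrk h.l1 h.o1 h.t1)
  · exact absurd (h.big1.conj g) (h.nbig hy o q)

end Fr

/-- a subgroup of order `9` of `C(z)` whose elements are conjugate to `y` -/
theorem D9.pure (h : D9 z f) (h1 : W ≤ 𝒞₁ z) (h2 : ♯W = 9) (o : y ^ 3 = 1)
    (h3 : ∀ w ∈ W, w ≠ 1 → ∃ g, g * y * g⁻¹ = w) : ¬ Big y := fun q => by
  obtain ⟨x1, x2, x3, t, h'⟩ := h.fr
  have nz : z ∉ W := h.ivo.not_mem (by rw [h2]; decide)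
  have k : ∀ m, (∀ w ∈ W, w ≠ 1 → w ^ 3 = 1 → (f w).support.card = m) → 9 ∣ 8 * m := fun m hm =>
    nine_dvd ((h.card_dn h1 nz).trans h2) fun σ hσ s1 => by
      obtain ⟨a, a1, a2⟩ := h.of_dn hσ
      have a3 : a ≠ 1 := fun e => s1 (a2.uq (e ▸ h.one))
      obtain ⟨g, e⟩ := h3 a a1 a3
      exact a2.eq ▸ hm a a1 a3 (by rw [← e, conj_pow, o]; group)
  by_cases r : Rk2 (𝒞₁ y)
  · exact absurd (k 6 fun w hw w1 w3 => h.rk6 (h1 hw) w3 w1
      (let ⟨g, e⟩ := h3 w hw w1; e ▸ rk2_conj r g)) (by decide)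
  · refine absurd (k 3 fun w hw w1 w3 => ?_) (by decide)
    obtain ⟨g, e⟩ := h3 w hw w1
    rcases h.supp3 (h1 hw) w3 w1 with p | p | p
    · exact p
    · exact absurd (conj_back g y ▸ e ▸ rk2_conj (h'.rk2_of6 (h1 hw) w3 p) g⁻¹) r
    · exact absurd (e ▸ q.conj g) (h.nbig (h1 hw) w3 p)

end Cfsg.H2.DC
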