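/-
Diagonal and monomial elements of a matrix group.
-/
import Cfsg.Agent.H2.LinGroup

set_option autoImplicit false

namespace Cfsg.H2

open scoped Matrix

variable {F : Type*} [Field F] {H : Type*} [Group H] {ι : Type} [Fintype ι] [DecidableEq ι]
  (toMat : H →* Matrix ι ι F)

theorem toMat_mul_inv (h : H) : toMat h * toMat h⁻¹ = 1 := by
  rw [← map_mul, mul_inv_cancel, map_one]

theorem toMat_inv_mul (h : H) : toMat h⁻¹ * toMat h = 1 := by
  rw [← map_mul, inv_mul_cancel, map_one]

omit [DecidableEq ι] in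
theorem mul_apply_of_col {A B : Matrix ι ι F} {j k : ι} (hB : ∀ i, B i j ≠ 0 → i = k) (i : ι) :
    (A * B) i j = A i k * B k j := by
  rw [Matrix.mul_apply, Finset.sum_eq_single k]
  · intro l _ hl
    by_cases h : B l j = 0
    · rw [h, mul_zero]
    · exact absurd (hB l h) hl
  · simp

omit [DecidableEq ι] in
theorem mul_apply_of_row {A B : Matrix ι ι F} {i k : ι} (hA : ∀ j, A i j ≠ 0 → j = k) (j : ι) :
    (A * B) i j = A i k * B k j := by
  rw [Matrix.mul_apply, Finset.sum_eq_single k]
  · intro l _ hl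
    by_cases h : A i l = 0
    · rw [h, zero_mul]
    · exact absurd (hA l h) hl
  · simp

/-- Elements with a monomial matrix. -/
def monoSub : Subgroup H where
  carrier := {h | ∃ π : Equiv.Perm ι, ∀ i j, toMat h i j ≠ 0 ↔ i = π j}
  mul_mem' := by
    rintro a b ⟨π, hπ⟩ ⟨ρ, hρ⟩
    refine ⟨π * ρ, fun i j => ?_⟩
    rw [map_mul, mul_apply_of_col (k := ρ j) (fun l hl => (hρ l j).1 hl), mul_ne_zero_iff, hπ, hρ]
    simp
  one_mem' := ⟨1, fun i j => by simp [Matrix.one_apply]⟩
  inv_mem' := by
    rintro a ⟨π, hπ⟩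
    refine ⟨π⁻¹, fun i j => ?_⟩
    obtain ⟨j, rfl⟩ := π.surjective j
    have := congrFun (congrFun (toMat_inv_mul toMat a) i) j
    rw [mul_apply_of_col (k := π j) (fun l hl => (hπ l j).1 hl), Matrix.one_apply] at this
    have h2 := (hπ (π j) j).2 rfl
    simp only [Equiv.Perm.coe_inv, Equiv.symm_apply_apply]
    constructor
    · intro h
      by_contra hc
      rw [if_neg hc] at this
      exact mul_ne_zero h h2 this
    · intro h hc
      rw [if_pos h, hc, zero_mul] at this
      exact zero_ne_one this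

omit [Fintype ι] [DecidableEq ι] in
theorem monoPerm_unique {A : Matrix ι ι F} {π ρ : Equiv.Perm ι} (hπ : ∀ i j, A i j ≠ 0 ↔ i = π j)
    (hρ : ∀ i j, A i j ≠ 0 ↔ i = ρ j) : π = ρ := by
  ext j
  exact (hρ _ j).1 ((hπ _ j).2 rfl)

/-- The permutation underlying a monomial matrix. -/
noncomputable def monoPerm : monoSub toMat →* Equiv.Perm ι where
  toFun g := g.2.choose
  map_one' := monoPerm_unique (1 : monoSub toMat).2.choose_spec
    (fun i j => by simp [Matrix.one_apply])
  map_mul' a b := monoPerm_unique (a * b).2.choose_spec (fun i j => by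
    rw [Subgroup.coe_mul, map_mul,
      mul_apply_of_col (k := b.2.choose j) (fun l hl => (b.2.choose_spec l j).1 hl),
      mul_ne_zero_iff, a.2.choose_spec, b.2.choose_spec]
    simp)

theorem monoPerm_spec (g : monoSub toMat) (i j : ι) :
    toMat g i j ≠ 0 ↔ i = monoPerm toMat g j := g.2.choose_spec i j

theorem row_ne_zero (h : H) (i : ι) : ∃ j, toMat h i j ≠ 0 := by
  by_contra hc
  push Not at hc
  have := congrFun (congrFun (toMat_mul_inv toMat h) i) i
  simp [Matrix.mul_apply, hc] at this

theorem col_ne_zero (h : H) (j : ι) : ∃ i, toMat h i j ≠ 0 := by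
  by_contra hc
  push Not at hc
  have := congrFun (congrFun (toMat_inv_mul toMat h) j) j
  simp [Matrix.mul_apply, hc] at this

theorem mem_monoSub_iff (h : H) : h ∈ monoSub toMat ↔ ∀ i, ∃! j, toMat h i j ≠ 0 := by
  constructor
  · rintro ⟨π, hπ⟩ i
    refine ⟨π.symm i, (hπ _ _).2 (by simp), fun j hj => ?_⟩
    rw [(hπ _ _).1 hj]; simp
  · intro hh
    choose f hf hf' using hh
    have hsurj : Function.Surjective f := fun j => by
      obtain ⟨i, hi⟩ := col_ne_zero toMat h j
      exact ⟨i, (hf' i j hi).symm⟩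
    let e := Equiv.ofBijective f (Finite.surjective_iff_bijective.1 hsurj)
    refine ⟨e.symm, fun i j => ⟨fun hij => ?_, fun hij => ?_⟩⟩
    · rw [hf' i j hij]; exact (e.symm_apply_apply i).symm
    · have : j = f i := by rw [hij]; exact (e.apply_symm_apply j).symm
      rw [this]; exact hf i

/-- Elements with a diagonal matrix. -/
noncomputable def diagSub : Subgroup H := (monoPerm toMat).ker.map (monoSub toMat).subtype

theorem mem_diagSub {h : H} : h ∈ diagSub toMat ↔ ∀ i j, i ≠ j → toMat h i j = 0 := by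
  constructor
  · rintro ⟨g, hg, rfl⟩ i j hij
    by_contra hc
    have := (monoPerm_spec toMat g i j).1 hc
    rw [MonoidHom.mem_ker.1 hg] at this
    exact hij this
  · intro hh
    have key : ∀ i j, toMat h i j ≠ 0 ↔ i = (1 : Equiv.Perm ι) j := by
      intro i j
      refine ⟨fun hij => by_contra fun hc => hij (hh i j hc), ?_⟩
      intro hij
      obtain ⟨l, hl⟩ := col_ne_zero toMat h j
      have : l = j := by_contra fun hc => hl (hh l j hc)
      rw [hij, ← this]
      rw [← this] at hl
      exact hl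
    exact ⟨⟨h, 1, key⟩, monoPerm_unique (monoPerm_spec toMat _) key, rfl⟩

theorem normalizer_diagSub
    (hsep : ∀ j k, j ≠ k → ∃ t ∈ diagSub toMat, toMat t j j ≠ toMat t k k) :
    Subgroup.normalizer (diagSub toMat : Set H) = monoSub toMat := by
  apply le_antisymm
  · intro g hg
    rw [mem_monoSub_iff]
    intro i
    obtain ⟨j, hj⟩ := row_ne_zero toMat g i
    refine ⟨j, hj, fun k hk => ?_⟩
    by_contra hkj
    obtain ⟨t, ht, htne⟩ := hsep k j hkj
    have h1 := (mem_diagSub toMat).1 ((hg t).1 ht)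
    have h2 := (mem_diagSub toMat).1 ht
    have h3 : toMat (g * t * g⁻¹) * toMat g = toMat g * toMat t := by
      rw [← map_mul, ← map_mul]; simp
    have h4 : ∀ l, toMat (g * t * g⁻¹) i i * toMat g i l = toMat g i l * toMat t l l := by
      intro l
      rw [← mul_apply_of_row (fun j hj => by_contra fun hc => hj (h1 _ _ (Ne.symm hc))), h3,
        mul_apply_of_col (fun j hj => by_contra fun hc => hj (h2 _ _ hc))]
    apply htne
    have h5 := h4 j
    have h6 := h4 k
    rw [mul_comm] at h5 h6
    rw [← mul_left_cancel₀ hj h5, ← mul_left_cancel₀ hk h6]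
  · intro g hg
    have key : ∀ g ∈ monoSub toMat, ∀ t ∈ diagSub toMat, g * t * g⁻¹ ∈ diagSub toMat := by
      rintro g hg _ ⟨t, ht, rfl⟩
      exact ⟨⟨g, hg⟩ * t * ⟨g, hg⟩⁻¹, (MonoidHom.normal_ker _).conj_mem t ht _, rfl⟩
    intro t
    refine ⟨key g hg t, fun ht => ?_⟩
    simpa [mul_assoc] using key g⁻¹ (inv_mem hg) _ ht

theorem card_monoSub : Nat.card (monoSub toMat) =
    Nat.card (diagSub toMat) * Nat.card (monoPerm toMat).range := by
  rw [card_eq_card_ker_mul_card_range (monoPerm toMat), diagSub, Subgroup.card_subtype]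

end Cfsg.H2
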