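/-
Maximal totally singular subspaces of a quadratic space of plus type.
-/
import Cfsg.Agent.H2.IsomGroup
import Cfsg.Agent.H2.Ortho

set_option autoImplicit false

namespace Cfsg.H2

open Module

variable {F : Type*} [Field F]

section abstract

variable {V : Type*} [AddCommGroup V] [Module F V] [FiniteDimensional F V]
  {Q : QuadraticForm F V} (h : (ofQuad Q).Nondeg) {m : ℕ} (hm : finrank F V = 2 * m)

omit [FiniteDimensional F V] in
theorem quad_isTS_iff {W : Submodule F V} : (ofQuad Q).IsTS W ↔ ∀ w ∈ W, Q w = 0 :=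
  ⟨fun h => h.1, fun h => FormSp.isTS_of_q ⟨1, one_ne_zero⟩ h⟩

include h hm

theorem perp_eq_self {X : Submodule F V} (hX : (ofQuad Q).IsTS X) (hXm : finrank F X = m) :
    (ofQuad Q).perp X = X := by
  have := h.finrank_add_finrank_perp X
  exact (Submodule.eq_of_le_of_finrank_eq hX.2 (by omega)).symm

theorem finrank_inf_perp_submax {X Z : Submodule F V} (hX : (ofQuad Q).IsTS X)
    (hXm : finrank F X = m) (hZm : finrank F Z + 1 = m) :
    finrank F (X ⊓ (ofQuad Q).perp Z : Submodule F V) = finrank F (X ⊓ Z : Submodule F V) + 1 := by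
  have h1 := h.finrank_add_finrank_perp (X ⊔ Z)
  rw [FormSp.perp_sup, perp_eq_self h hm hX hXm] at h1
  have h2 := Submodule.finrank_sup_add_finrank_inf_eq X Z
  omega

/-- The singular vectors perpendicular to the intersection of two adjacent maximal totally singular
subspaces lie in one of them. -/
theorem mem_or_mem_of_adjacent {U W : Submodule F V} (hU : (ofQuad Q).IsTS U)
    (hUm : finrank F U = m) (hW : (ofQuad Q).IsTS W) (hWm : finrank F W = m)
    (hUW : finrank F (U ⊓ W : Submodule F V) + 1 = m) {x : V}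
    (hx : x ∈ (ofQuad Q).perp (U ⊓ W)) (hq : Q x = 0) : x ∈ U ∨ x ∈ W := by
  rw [h.perp_inf, perp_eq_self h hm hU hUm, perp_eq_self h hm hW hWm] at hx
  obtain ⟨u, hu, w, hw, rfl⟩ := Submodule.mem_sup.1 hx
  by_cases huW : u ∈ W
  · exact Or.inr (W.add_mem huW hw)
  left
  have h1 : (ofQuad Q).B u w = 0 := by
    have := (ofQuad Q).q_add u w
    rw [hU.1 u hu, hW.1 w hw, ofQuad_q, hq] at this
    simpa [ofQuad] using this.symm
  have h2 : (U ⊓ W) ⊔ F ∙ u = U := by
    apply Submodule.eq_of_le_of_finrank_eq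
    · exact sup_le inf_le_left ((Submodule.span_singleton_le_iff_mem _ _).2 hu)
    · rw [finrank_sup_span (U := U ⊓ W) (fun hc => huW hc.2), hUW, hUm]
  have h3 : w ∈ (ofQuad Q).perp U := by
    rw [← h2, FormSp.perp_sup]
    exact ⟨(ofQuad Q).perp_anti inf_le_right (hW.2 hw), (ofQuad Q).mem_perp_singleton.2 h1⟩
  rw [perp_eq_self h hm hU hUm] at h3
  exact U.add_mem hu h3

theorem finrank_inf_adjacent {U W X : Submodule F V} (hU : (ofQuad Q).IsTS U)
    (hUm : finrank F U = m) (hW : (ofQuad Q).IsTS W) (hWm : finrank F W = m)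
    (hUW : finrank F (U ⊓ W : Submodule F V) + 1 = m) (hX : (ofQuad Q).IsTS X)
    (hXm : finrank F X = m) :
    finrank F (U ⊓ X : Submodule F V) = finrank F (W ⊓ X : Submodule F V) + 1 ∨
      finrank F (W ⊓ X : Submodule F V) = finrank F (U ⊓ X : Submodule F V) + 1 := by
  have key : ∀ U W : Submodule F V, (ofQuad Q).IsTS U → (ofQuad Q).IsTS W →
      finrank F (U ⊓ W : Submodule F V) + 1 = m → ∀ x ∈ X, x ∈ U → x ∉ W →
      finrank F (U ⊓ X : Submodule F V) = finrank F (W ⊓ X : Submodule F V) + 1 := by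
    intro U W hU hW hUW x hxX hxU hxW
    have h1 := finrank_inf_perp_submax h hm hX hXm hUW
    have hU' : U ⊓ X ≤ X ⊓ (ofQuad Q).perp (U ⊓ W) :=
      le_inf inf_le_right (inf_le_left.trans (hU.2.trans ((ofQuad Q).perp_anti inf_le_left)))
    have hW' : W ⊓ X ≤ X ⊓ (ofQuad Q).perp (U ⊓ W) :=
      le_inf inf_le_right (inf_le_left.trans (hW.2.trans ((ofQuad Q).perp_anti inf_le_right)))
    have a1 := Submodule.finrank_mono hU'
    have a2 := Submodule.finrank_lt_finrank_of_lt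
      (lt_of_le_of_ne hW' fun hc => hxW (hc.ge (hU' ⟨hxU, hxX⟩)).1)
    have a3 : finrank F (X ⊓ (U ⊓ W) : Submodule F V) < finrank F (U ⊓ X : Submodule F V) :=
      Submodule.finrank_lt_finrank_of_lt (lt_of_le_of_ne
        (le_inf (inf_le_right.trans inf_le_left) inf_le_left)
        fun hc => hxW (hc.ge ⟨hxU, hxX⟩).2.2)
    have a4 : finrank F (X ⊓ (U ⊓ W) : Submodule F V) ≤ finrank F (W ⊓ X : Submodule F V) :=
      Submodule.finrank_mono (le_inf (inf_le_right.trans inf_le_right) inf_le_left)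
    omega
  obtain ⟨x, hx, hx'⟩ : ∃ x ∈ X ⊓ (ofQuad Q).perp (U ⊓ W), x ∉ U ⊓ W := by
    by_contra hc
    push Not at hc
    have h1 := finrank_inf_perp_submax h hm hX hXm hUW
    have : X ⊓ (ofQuad Q).perp (U ⊓ W) ≤ X ⊓ (U ⊓ W) := le_inf inf_le_left hc
    have := Submodule.finrank_mono this
    omega
  rcases mem_or_mem_of_adjacent h hm hU hUm hW hWm hUW hx.2 (hX.1 x hx.1) with h1 | h1
  · exact Or.inl (key U W hU hW hUW x hx.1 h1 fun hc => hx' ⟨h1, hc⟩)
  · exact Or.inr (key W U hW hU (by rwa [inf_comm]) x hx.1 h1 fun hc => hx' ⟨hc, h1⟩)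

omit h hm in
theorem finrank_inf_perp_span {U : Submodule F V} {w : V} (hw : ∃ u ∈ U, (ofQuad Q).B w u ≠ 0) :
    finrank F (U ⊓ (ofQuad Q).perp (F ∙ w) : Submodule F V) + 1 = finrank F U := by
  obtain ⟨u, hu, hwu⟩ := hw
  have h1 : u ∉ U ⊓ (ofQuad Q).perp (F ∙ w) := fun hc => hwu ((ofQuad Q).mem_perp_singleton.1 hc.2)
  rw [← finrank_sup_span h1]
  suffices hs : (U ⊓ (ofQuad Q).perp (F ∙ w)) ⊔ F ∙ u = U by rw [hs]
  apply le_antisymm (sup_le inf_le_left ((Submodule.span_singleton_le_iff_mem _ _).2 hu))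
  intro x hx
  refine Submodule.mem_sup.2 ⟨x - ((ofQuad Q).B w x / (ofQuad Q).B w u) • u,
    ⟨U.sub_mem hx (U.smul_mem _ hu), (ofQuad Q).mem_perp_singleton.2 ?_⟩, _,
    Submodule.mem_span_singleton.2 ⟨(ofQuad Q).B w x / (ofQuad Q).B w u, rfl⟩, by simp⟩
  rw [map_sub, map_smul, smul_eq_mul, div_mul_cancel₀ _ hwu, sub_self]

/-- Moving a maximal totally singular subspace to an adjacent one through a singular vector. -/
theorem exists_adjacent {U : Submodule F V} (hU : (ofQuad Q).IsTS U) (hUm : finrank F U = m)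
    {w : V} (hwU : w ∉ U) (hw : Q w = 0) :
    ∃ U' : Submodule F V, (ofQuad Q).IsTS U' ∧ finrank F U' = m ∧
      finrank F (U ⊓ U' : Submodule F V) + 1 = m ∧ w ∈ U' ∧
      U ⊓ (ofQuad Q).perp (F ∙ w) ≤ U' := by
  have h1 : finrank F (U ⊓ (ofQuad Q).perp (F ∙ w) : Submodule F V) + 1 = m := by
    rw [finrank_inf_perp_span, hUm]
    by_contra hc
    push Not at hc
    apply hwU
    rw [← perp_eq_self h hm hU hUm, FormSp.mem_perp']
    exact hc
  have h2 : w ∉ U ⊓ (ofQuad Q).perp (F ∙ w) := fun hc => hwU hc.1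
  have h3 : w ∈ (U ⊓ (ofQuad Q).perp (F ∙ w)) ⊔ F ∙ w :=
    Submodule.mem_sup_right (Submodule.mem_span_singleton_self w)
  refine ⟨(U ⊓ (ofQuad Q).perp (F ∙ w)) ⊔ F ∙ w, (hU.mono inf_le_left).sup_span ?_ hw,
    by rw [finrank_sup_span h2, h1], ?_, h3, le_sup_left⟩
  · exact (ofQuad Q).le_perp_comm.1 inf_le_right (Submodule.mem_span_singleton_self w)
  · have a1 : finrank F (U ⊓ (ofQuad Q).perp (F ∙ w) : Submodule F V) ≤
        finrank F (U ⊓ ((U ⊓ (ofQuad Q).perp (F ∙ w)) ⊔ F ∙ w) : Submodule F V) :=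
      Submodule.finrank_mono (le_inf inf_le_left le_sup_left)
    have a2 : finrank F (U ⊓ ((U ⊓ (ofQuad Q).perp (F ∙ w)) ⊔ F ∙ w) : Submodule F V) <
        finrank F ((U ⊓ (ofQuad Q).perp (F ∙ w)) ⊔ F ∙ w : Submodule F V) :=
      Submodule.finrank_lt_finrank_of_lt (lt_of_le_of_ne inf_le_right fun hc => hwU (hc.ge h3).1)
    rw [finrank_sup_span h2] at a2
    omega

theorem even_codim_sum {W X : Submodule F V} (hW : (ofQuad Q).IsTS W) (hWm : finrank F W = m)
    (hX : (ofQuad Q).IsTS X) (hXm : finrank F X = m) (d : ℕ) :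
    ∀ U : Submodule F V, (ofQuad Q).IsTS U → finrank F U = m →
      finrank F (U ⊓ W : Submodule F V) + d = m →
      Even ((m - finrank F (U ⊓ W : Submodule F V)) + (m - finrank F (W ⊓ X : Submodule F V)) +
        (m - finrank F (U ⊓ X : Submodule F V))) := by
  induction d with
  | zero =>
    intro U _ hUm hd
    have h1 : U ⊓ W = U := Submodule.eq_of_le_of_finrank_eq inf_le_left (by omega)
    have h2 : U ⊓ W = W := Submodule.eq_of_le_of_finrank_eq inf_le_right (by omega)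
    rw [h1, ← h1.symm.trans h2, hUm]
    simp
  | succ d ih =>
    intro U hU hUm hd
    obtain ⟨w, hwW, hwU⟩ : ∃ w ∈ W, w ∉ U := by
      by_contra hc
      push Not at hc
      rw [inf_eq_right.2 (show W ≤ U from hc)] at hd
      omega
    obtain ⟨U', hU', hU'm, hUU', hwU', hle⟩ := exists_adjacent h hm hU hUm hwU (hW.1 w hwW)
    have a1 : finrank F (U ⊓ W : Submodule F V) < finrank F (U' ⊓ W : Submodule F V) := by
      refine Submodule.finrank_lt_finrank_of_lt (lt_of_le_of_ne (le_inf ?_ inf_le_right)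
        fun hc => hwU (hc.ge ⟨hwU', hwW⟩).1)
      refine le_trans (inf_le_inf_left _ ?_) hle
      exact hW.2.trans ((ofQuad Q).perp_anti ((Submodule.span_singleton_le_iff_mem _ _).2 hwW))
    have a2 := finrank_inf_adjacent h hm hU hUm hU' hU'm hUU' hW hWm
    have a3 := finrank_inf_adjacent h hm hU hUm hU' hU'm hUU' hX hXm
    have a4 := ih U' hU' hU'm (by omega)
    have a5 : finrank F (U ⊓ X : Submodule F V) ≤ m := hXm ▸ Submodule.finrank_mono inf_le_right
    have a6 : finrank F (U' ⊓ X : Submodule F V) ≤ m := hXm ▸ Submodule.finrank_mono inf_le_right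
    rw [Nat.even_iff] at a4 ⊢
    omega

theorem card_maximal_above {X U : Submodule F V} (hX : (ofQuad Q).IsTS X) (hXm : finrank F X = m)
    (hU : (ofQuad Q).IsTS U) (hUm : finrank F U + 1 = m) :
    Nat.card {W : Submodule F V // finrank F W = m ∧ (ofQuad Q).IsTS W ∧ U ≤ W} = 2 := by
  obtain ⟨x, hx, hxU⟩ : ∃ x ∈ X ⊓ (ofQuad Q).perp U, x ∉ U := by
    by_contra hc
    push Not at hc
    have h1 := finrank_inf_perp_submax h hm hX hXm hUm
    have : X ⊓ (ofQuad Q).perp U ≤ X ⊓ U := le_inf inf_le_left hc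
    have := Submodule.finrank_mono this
    omega
  have hW1 := hU.sup_span hx.2 (hX.1 x hx.1)
  have hW1m : finrank F (U ⊔ F ∙ x : Submodule F V) = m := by rw [finrank_sup_span hxU, hUm]
  obtain ⟨y, hy, hyq, hxy⟩ := h.exists_partner hxU hx.2 (hX.1 x hx.1)
  have hy1 : y ∉ U ⊔ F ∙ x := fun hc => by
    rw [hW1.B_eq (Submodule.mem_sup_right (Submodule.mem_span_singleton_self x)) hc] at hxy
    exact zero_ne_one hxy
  have hyU : y ∉ U := fun hc => hy1 (Submodule.mem_sup_left hc)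
  have hW2 := hU.sup_span hy hyq
  have hW2m : finrank F (U ⊔ F ∙ y : Submodule F V) = m := by rw [finrank_sup_span hyU, hUm]
  have hy2 : y ∈ U ⊔ F ∙ y := Submodule.mem_sup_right (Submodule.mem_span_singleton_self y)
  have hinf : (U ⊔ F ∙ x) ⊓ (U ⊔ F ∙ y) = U := by
    symm
    apply Submodule.eq_of_le_of_finrank_le (le_inf le_sup_left le_sup_left)
    have : finrank F ((U ⊔ F ∙ x) ⊓ (U ⊔ F ∙ y) : Submodule F V) <
        finrank F (U ⊔ F ∙ y : Submodule F V) :=
      Submodule.finrank_lt_finrank_of_lt (lt_of_le_of_ne inf_le_right fun hc => hy1 (hc.ge hy2).1)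
    omega
  rw [Nat.card_eq_two_iff]
  refine ⟨⟨_, hW1m, hW1, le_sup_left⟩, ⟨_, hW2m, hW2, le_sup_left⟩, fun hc => hy1 ?_, ?_⟩
  · exact (congrArg Subtype.val hc).ge hy2
  · rw [Set.eq_univ_iff_forall]
    rintro ⟨W, hWm, hW, hUW⟩
    obtain ⟨z, hzW, hzU⟩ : ∃ z ∈ W, z ∉ U := by
      by_contra hc
      push Not at hc
      have := Submodule.finrank_mono (show W ≤ U from hc)
      omega
    have hWz : U ⊔ F ∙ z = W := Submodule.eq_of_le_of_finrank_eq
      (sup_le hUW ((Submodule.span_singleton_le_iff_mem _ _).2 hzW))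
      (by rw [finrank_sup_span hzU, hUm, hWm])
    have key : ∀ Y : Submodule F V, finrank F Y = m → U ≤ Y → z ∈ Y → W = Y := by
      intro Y hY hUY hzY
      apply Submodule.eq_of_le_of_finrank_eq _ (hWm.trans hY.symm)
      rw [← hWz]
      exact sup_le hUY ((Submodule.span_singleton_le_iff_mem _ _).2 hzY)
    rcases mem_or_mem_of_adjacent h hm hW1 hW1m hW2 hW2m (by rw [hinf, hUm]) (x := z)
      (by rw [hinf]; exact (ofQuad Q).perp_anti hUW (hW.2 hzW)) (hW.1 z hzW) with h1 | h1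
    · exact Or.inl (Subtype.ext (key _ hW1m le_sup_left h1))
    · exact Or.inr (Subtype.ext (key _ hW2m le_sup_left h1))

end abstract

/-- The hyperbolic quadratic form as a bundled quadratic form. -/
noncomputable def plusQ (m : ℕ) (F : Type*) [Field F] : QuadraticForm F (Fin m ⊕ Fin m → F) :=
  ∑ i : Fin m, QuadraticMap.proj (Sum.inl i) (Sum.inr i)

theorem plusQ_apply {m : ℕ} (v : Fin m ⊕ Fin m → F) : plusQ m F v = Cfsg.quadFormPlus m F v := by
  simp [plusQ, Cfsg.quadFormPlus]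

theorem plusQ_polar {m : ℕ} (u v : Fin m ⊕ Fin m → F) : QuadraticMap.polar (plusQ m F) u v =
    ∑ i, (u (Sum.inl i) * v (Sum.inr i) + u (Sum.inr i) * v (Sum.inl i)) := by
  simp only [QuadraticMap.polar, plusQ_apply, Cfsg.quadFormPlus, Pi.add_apply,
    ← Finset.sum_sub_distrib]
  exact Finset.sum_congr rfl fun i _ => by ring

theorem plusQ_nondeg (m : ℕ) (F : Type*) [Field F] : (ofQuad (plusQ m F)).Nondeg := by
  intro x hx
  ext (i | i)
  · simpa [plusQ_polar, Pi.single_apply] using hx (Pi.single (Sum.inr i) 1)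
  · simpa [plusQ_polar, Pi.single_apply] using hx (Pi.single (Sum.inl i) 1)

theorem exists_maximal_plusQ (m : ℕ) (F : Type*) [Field F] :
    ∃ X : Submodule F (Fin m ⊕ Fin m → F), (ofQuad (plusQ m F)).IsTS X ∧ finrank F X = m := by
  let b := Pi.basisFun F (Fin m ⊕ Fin m)
  have hv : LinearIndependent F (b ∘ Sum.inl) := b.linearIndependent.comp Sum.inl Sum.inl_injective
  refine ⟨Submodule.span F (Set.range (b ∘ Sum.inl)), FormSp.isTS_span ?_ ?_,
    by rw [finrank_span_eq_card hv]; simp⟩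
  · rintro _ ⟨i, rfl⟩
    simp [b, plusQ_apply, Cfsg.quadFormPlus]
  · rintro _ ⟨i, rfl⟩ _ ⟨j, rfl⟩
    simp [b, plusQ_polar]

end Cfsg.H2
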