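/-
Triality: symmetric composition algebras and the exceptional automorphisms of `PΩ₈⁺(q)`.
-/
import Cfsg.Agent.H2.AutO

set_option autoImplicit false

namespace Cfsg.H2

open Module QuadraticMap

variable {F : Type*} [Field F]

theorem finrank_eq_two_mul_of_map {M : Type*} [AddCommGroup M] [Module F M] [FiniteDimensional F M]
    {K K' : Submodule F M} (φ : M →ₗ[F] M) (h1 : K = K' ⊓ LinearMap.ker φ) (h2 : K = K'.map φ) :
    finrank F K' = 2 * finrank F K := by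
  have h3 := LinearMap.finrank_range_add_finrank_ker (φ.domRestrict K')
  rw [LinearMap.range_domRestrict, LinearMap.ker_domRestrict, ← h2,
    ← Submodule.finrank_map_subtype_eq, Submodule.map_comap_subtype, ← h1] at h3
  omega

/-- The commutator subgroup of the orthogonal group is generated by the groups `Qx`. -/
theorem commutator_le_of_Qx {ι : Type} [Fintype ι] [DecidableEq ι] {Q : QuadraticForm F (ι → F)}
    (h : (ofQuad Q).Nondeg) {U : Submodule F (ι → F)} (hU : (ofQuad Q).IsTS U)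
    (hU3 : 3 ≤ finrank F U) {E : Subgroup ((ι → F) ≃ₗ[F] (ι → F))}
    (hE : ∀ x, Q x = 0 → (ofQuad Q).Qx x ≤ E) : ⁅(ofQuad Q).isom, (ofQuad Q).isom⁆ ≤ E := by
  have hd := hU.two_mul_finrank_le h
  rw [finrank_fintype_fun_eq_card] at hd
  let K := Subgroup.closure {g : H3.OG Q | ∃ x, Q x = 0 ∧ ogLE Q g ∈ (ofQuad Q).Qx x}
  have hK : K.Normal := H3.normal_closure_of_conj fun k ⟨x, hx, hk⟩ g =>
    ⟨g • x, by simpa using hx, by
      rw [map_mul, map_mul, map_inv]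
      exact FormSp.conj_mem_Qx (range_ogLE Q ▸ ⟨g, rfl⟩) hk⟩
  rw [← map_commutator_ogLE, Subgroup.map_le_iff_le_comap]
  refine (H3.commutator_le_of_refl (nondegenerate_of_ofQuad h) (Or.inr (by omega)) K
    fun u v hu _ => ?_).trans ((Subgroup.closure_le _).2 fun g ⟨x, hx, hg⟩ => hE x hx hg)
  have hr : ∀ v, (H3.refl Q v)⁻¹ = H3.refl Q v := fun v =>
    inv_eq_of_mul_eq_one_right (H3.OG.ext_mat (H3.reflectionMatrix_mul_self v))
  have e1 : (H3.refl Q u * H3.refl Q v) ^ 2 = H3.refl Q u * H3.refl Q (H3.refl Q v • u) := by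
    rw [← H3.refl_conj, hr, pow_two]; simp only [mul_assoc]
  rw [e1]
  generalize hu' : H3.refl Q v • u = u'
  have hq : Q u' = Q u := by simp [← hu']
  by_cases hs : ∃ s, Q s = 0 ∧ polar Q s (u' - u) = 0 ∧ polar Q s u ≠ 0
  · obtain ⟨s, s1, s2, s3⟩ := hs
    obtain ⟨g, hg, hgu⟩ := h.exists_Qx (x := s) (y := u) (y' := u') s1 hq
      (by simpa [sub_eq_zero] using s2) s3
    obtain ⟨k, rfl⟩ := range_ogLE Q ▸ hg.1
    have hk : k ∈ K := Subgroup.subset_closure ⟨s, s1, hg⟩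
    rw [← hgu, ogLE_apply, ← H3.refl_conj]
    have := mul_mem (hK.conj_mem k hk (H3.refl Q u)) (inv_mem hk)
    rwa [hr, mul_assoc, mul_assoc, ← mul_assoc k] at this
  · push Not at hs
    have h6 := finrank_span_le_card (R := F) ({u' - u} : Set (ι → F))
    simp only [Set.toFinset_card, Fintype.card_unique] at h6
    obtain ⟨w, a1, a2, a3⟩ := h.exists_singular_perp (Z := F ∙ (u' - u)) hU (by omega)
    obtain ⟨y, b1, b2, b3⟩ := h.exists_partner a3 a1 a2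
    have h1 := FormSp.le_of_singular (C := (ofQuad Q).perp (F ∙ u)) a1 b1 a2 b2 (b3 ▸ one_ne_zero)
      fun s s1 s2 => (ofQuad Q).mem_perp_singleton.2 ((ofQuad Q).refl
        (hs s s2 ((ofQuad Q).refl ((ofQuad Q).mem_perp_singleton.1 s1))))
    obtain ⟨c, hc⟩ := Submodule.mem_span_singleton.1 (h.perp_perp (F ∙ (u' - u)) ▸
      (ofQuad Q).le_perp_comm.1 h1 (Submodule.mem_span_singleton_self u))
    have hc0 : c ≠ 0 := by rintro rfl; exact hu (by rw [← hc]; simp)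
    have e2 : u' = (c + 1) • (u' - u) := by rw [add_smul, hc]; simp
    have hc1 : c + 1 ≠ 0 := fun h0 => hu (by rw [← hq, e2, h0]; simp)
    rw [e2, H3.refl_smul_vec hc1, ← H3.refl_smul_vec hc0 (u' - u), hc, ← hr u, hr]
    nth_rewrite 1 [← hr u]
    rw [inv_mul_cancel]
    exact one_mem _

theorem Qx_apply {ι : Type} [Fintype ι] [DecidableEq ι] {Q : QuadraticForm F (ι → F)}
    (h : (ofQuad Q).Nondeg) {x : ι → F} (hx : Q x = 0) {g : (ι → F) ≃ₗ[F] (ι → F)}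
    (hg : g ∈ (ofQuad Q).Qx x) : ∃ u, polar Q x u = 0 ∧
      ∀ v, g v = v + polar Q x v • u - (polar Q u v + Q u * polar Q x v) • x := by
  by_cases hx0 : x = 0
  · refine ⟨0, by simp, fun v => ?_⟩
    obtain ⟨c, hc⟩ := hg.2.2 v (by simp [hx0])
    simp [hc, hx0]
  obtain ⟨y, hy⟩ := h.exists_one hx0
  have hy' : polar Q x y = 1 := hy
  have hu : polar Q x (g y - y) = 0 := by
    rw [polar_sub_right, sub_eq_zero]; exact FormSp.Qx_B hg y
  refine ⟨_, hu, fun v => ?_⟩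
  rw [← H3.eich_smul hx hu, ← ogLE_apply]
  refine LinearEquiv.congr_fun (FormSp.Qx_ext hg ⟨range_ogLE Q ▸ ⟨_, rfl⟩, ?_, fun v hv => ?_⟩
    (hy ▸ one_ne_zero) ?_) v
  · simp [ogLE_apply, H3.eich_smul, hx, polar_comm Q (g y - y), hu]
  · exact ⟨-polar Q (g y - y) v, by
      rw [ogLE_apply, H3.eich_smul, show polar Q x v = 0 from hv]; module⟩
  · have h1 := H3.Q_add (Q := Q) (g y - y) y
    rw [sub_add_cancel, show Q (g y) = Q y from hg.1.2 y] at h1
    rw [ogLE_apply, H3.eich_smul, hy', show polar Q (g y - y) y + Q (g y - y) * 1 = 0 by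
      linear_combination -h1]
    simp

/-- A symmetric composition algebra. -/
structure Tri {V : Type*} [AddCommGroup V] [Module F V] (Q : QuadraticForm F V) where
  m : V →ₗ[F] V →ₗ[F] V
  comp : ∀ x y, Q (m x y) = Q x * Q y
  assoc : ∀ x y z, polar Q (m x y) z = polar Q x (m y z)

namespace Tri

variable {V : Type*} [AddCommGroup V] [Module F V] {Q : QuadraticForm F V} (A : Tri Q)

theorem polar_left (x y z : V) : polar Q (A.m x y) (A.m x z) = Q x * polar Q y z := by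
  simp only [polar, ← map_add, A.comp]; ring

theorem polar_right (x y z : V) : polar Q (A.m y x) (A.m z x) = Q x * polar Q y z := by
  simp only [polar, ← LinearMap.add_apply, ← map_add, A.comp]; ring

/-- The triality group. -/
def grp : Subgroup ((V ≃ₗ[F] V) × (V ≃ₗ[F] V) × (V ≃ₗ[F] V)) where
  carrier := {t | t.1 ∈ (ofQuad Q).isom ∧ t.2.1 ∈ (ofQuad Q).isom ∧ t.2.2 ∈ (ofQuad Q).isom ∧
    ∀ x y, t.1 (A.m x y) = A.m (t.2.1 x) (t.2.2 y)}
  mul_mem' := fun ⟨a1, a2, a3, a4⟩ ⟨b1, b2, b3, b4⟩ =>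
    ⟨mul_mem a1 b1, mul_mem a2 b2, mul_mem a3 b3, fun x y => by simp [a4, b4]⟩
  one_mem' := ⟨one_mem _, one_mem _, one_mem _, fun _ _ => rfl⟩
  inv_mem' := fun {t} ⟨a1, a2, a3, a4⟩ =>
    ⟨inv_mem a1, inv_mem a2, inv_mem a3, fun x y => t.1.injective (by simp [a4])⟩

/-- The spinors annihilated by a subspace. -/
def ann (Z : Submodule F V) : Submodule F (V × V) where
  carrier := {n | ∀ z ∈ Z, A.m z n.2 = 0 ∧ A.m n.1 z = 0}
  add_mem' ha hb z hz := by simp [ha z hz, hb z hz]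
  zero_mem' z _ := by simp
  smul_mem' c _ ha z hz := by simp [ha z hz]

variable (h : (ofQuad Q).Nondeg)
include h

theorem sq_left (x y : V) : A.m (A.m x y) x = Q x • y := h.ext_left fun z => by
  rw [ofQuad_B, polarBilin_apply_apply, A.assoc, A.polar_left]; simp

theorem sq_right (x y : V) : A.m x (A.m y x) = Q x • y := h.ext_right fun z => by
  rw [ofQuad_B, polarBilin_apply_apply, ← A.assoc, A.polar_right]; simp

theorem lin_left (p q t : V) : A.m (A.m p t) q = polar Q p q • t - A.m (A.m q t) p := by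
  have h1 := A.sq_left h (p + q) t
  simp only [map_add, LinearMap.add_apply, A.sq_left h] at h1
  rw [polar]
  linear_combination (norm := module) h1

theorem lin_right (p q t : V) : A.m p (A.m t q) = polar Q p q • t - A.m q (A.m t p) := by
  have h1 := A.sq_right h (p + q) t
  simp only [map_add, LinearMap.add_apply, A.sq_right h] at h1
  rw [polar]
  linear_combination (norm := module) h1

theorem cyc {a b c : V ≃ₗ[F] V} (ht : (a, b, c) ∈ A.grp) : (b, c, a) ∈ A.grp := by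
  obtain ⟨h1, h2, h3, h4⟩ := ht
  refine ⟨h2, h3, h1, fun y z => h.ext_right fun x => ?_⟩
  obtain ⟨x, rfl⟩ := b.surjective x
  rw [h2.1]
  simp only [ofQuad_B, polarBilin_apply_apply, ← A.assoc, ← h4]
  exact (h1.1 _ _).symm

variable [FiniteDimensional F V]

theorem eich_mem {x u : V} (hx : Q x = 0) (hu : polar Q x u = 0) {g : V ≃ₗ[F] V}
    (hg : g ∈ (ofQuad Q).isom)
    (hg' : ∀ v, g v = v + polar Q x v • u - (polar Q u v + Q u * polar Q x v) • x) :
    ∃ b c, (g, b, c) ∈ A.grp := by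
  have key : ∀ φ : V →ₗ[F] V, (∀ v, Q (φ v) = Q v) → ∃ k ∈ (ofQuad Q).isom, ∀ v, k v = φ v :=
    fun φ hφ => h.exists_isom φ (fun x y => by simp [polar, ← map_add, hφ]) hφ
  obtain ⟨c, hc, hc'⟩ := key (LinearMap.id + A.m u ∘ₗ A.m.flip x) fun s => by
    change Q (s + A.m u (A.m s x)) = Q s
    rw [QuadraticMap.map_add Q, ← A.assoc, A.polar_left, polar_comm Q u]
    simp [A.comp, hx, hu]
  obtain ⟨b, hb, hb'⟩ := key (LinearMap.id + A.m.flip u ∘ₗ A.m x) fun s => by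
    change Q (s + A.m (A.m x s) u) = Q s
    rw [QuadraticMap.map_add Q, polar_comm, A.assoc, A.polar_right]
    simp [A.comp, hx, hu]
  refine ⟨b, c, A.cyc h ⟨hc, hg, hb, fun v t => ?_⟩⟩
  have e1 := A.lin_left h v x t
  have e2 := A.lin_right h u v (A.m x t)
  have e3 := A.lin_right h x u (A.m x t)
  have e4 := A.sq_right h u (A.m x t)
  rw [A.sq_left h, hx, hu] at e3
  simp only [hc', hb', hg', LinearMap.add_apply, LinearMap.id_apply, LinearMap.comp_apply,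
    LinearMap.flip_apply, map_add, map_sub, map_smul, LinearMap.sub_apply, LinearMap.smul_apply,
    e1, e2, e3, e4, polar_comm Q v x]
  module

theorem finrank_ann {W : Submodule F V} (hW : (ofQuad Q).IsTS W) (k : ℕ) (hk : k ≤ finrank F W) :
    ∃ Z ≤ W, finrank F Z = k ∧ finrank F (A.ann Z) * 2 ^ k = 2 * finrank F V := by
  induction k with
  | zero =>
    refine ⟨⊥, bot_le, finrank_bot _ _, ?_⟩
    rw [show A.ann ⊥ = ⊤ from eq_top_iff.2 fun n _ z hz => by simp [(Submodule.mem_bot F).1 hz]]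
    simp [two_mul]
  | succ k ih =>
    obtain ⟨Z, hZ, h1, h2⟩ := ih (by omega)
    obtain ⟨x, hx, hxZ⟩ : ∃ x ∈ W, x ∉ Z := by
      by_contra hc
      push Not at hc
      have := Submodule.finrank_mono (show W ≤ Z from hc)
      omega
    have hxp : x ∈ (ofQuad Q).perp Z := (ofQuad Q).perp_anti hZ (hW.2 hx)
    have hq : Q x = 0 := hW.1 x hx
    obtain ⟨y, hy, -, hxy⟩ := h.exists_partner hxZ hxp hq
    let cl : V → (V × V) →ₗ[F] V × V := fun x =>
      (A.m x ∘ₗ LinearMap.snd F V V).prod (A.m.flip x ∘ₗ LinearMap.fst F V V)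
    have hcl : ∀ x ∈ (ofQuad Q).perp Z, ∀ n ∈ A.ann Z, cl x n ∈ A.ann Z := fun x hx n hn z hz => by
      have h3 : polar Q z x = 0 := hx z hz
      simp [cl, A.lin_right h z x, A.lin_left h x z, h3, polar_comm Q x, hn z hz]
    have h3 : A.ann (Z ⊔ F ∙ x) = A.ann Z ⊓ LinearMap.ker (cl x) := by
      ext n
      refine ⟨fun hn => ⟨fun z hz => hn z (Submodule.mem_sup_left hz), Prod.ext_iff.2
        (hn x (Submodule.mem_sup_right (Submodule.mem_span_singleton_self x)))⟩, fun hn z hz => ?_⟩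
      obtain ⟨a, ha, _, hb, rfl⟩ := Submodule.mem_sup.1 hz
      obtain ⟨b, rfl⟩ := Submodule.mem_span_singleton.1 hb
      obtain ⟨h4, h5⟩ : A.m x n.2 = 0 ∧ A.m n.1 x = 0 := Prod.ext_iff.1 hn.2
      simp [hn.1 a ha, h4, h5]
    refine ⟨Z ⊔ F ∙ x, sup_le hZ ((Submodule.span_singleton_le_iff_mem _ _).2 hx),
      by rw [finrank_sup_span hxZ, h1], ?_⟩
    rw [← h2, finrank_eq_two_mul_of_map (cl x) h3 (h3.trans (le_antisymm ?_ ?_))]
    · ring
    · intro n hn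
      obtain ⟨h4, h5⟩ : A.m x n.2 = 0 ∧ A.m n.1 x = 0 := Prod.ext_iff.1 hn.2
      have h6 : polar Q x y = 1 := hxy
      exact ⟨cl y n, hcl y hy n hn.1, by
        simp [cl, A.lin_right h x y, A.lin_left h y x, polar_comm Q y, h4, h5, h6]⟩
    · rintro _ ⟨n, hn, rfl⟩
      exact ⟨hcl x hxp n hn, by simp [cl, A.sq_left h, A.sq_right h, hq]⟩

variable (h8 : finrank F V = 8)
include h8

theorem finrank_ann_eq_one {W : Submodule F V} (hW : (ofQuad Q).IsTS W) (h4 : finrank F W = 4) :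
    finrank F (A.ann W) = 1 := by
  obtain ⟨Z, hZ, h1, h2⟩ := A.finrank_ann h hW 4 h4.ge
  rw [Submodule.eq_of_le_of_finrank_eq hZ (h1.trans h4.symm)] at h2
  omega

theorem stab_right {W : Submodule F V} (hW : (ofQuad Q).IsTS W) (h4 : finrank F W = 4) {y : V}
    (hy0 : y ≠ 0) (hy : ∀ z ∈ W, A.m z y = 0) {a b c : V ≃ₗ[F] V} (ht : (a, b, c) ∈ A.grp)
    (hb : b ∈ stabSub W) : c ∈ stabSub (F ∙ y) := by
  obtain ⟨t, ht⟩ := (finrank_eq_one_iff_of_nonzero' (⟨(0, y), fun z hz => ⟨hy z hz, by simp⟩⟩ :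
    A.ann W) (by simpa [Subtype.ext_iff] using hy0)).1 (A.finrank_ann_eq_one h h8 hW h4) ⟨(0, c y), fun z hz => by
      obtain ⟨z, rfl⟩ := b.surjective z
      simp [← ht.2.2.2, hy z ((hb z).2 hz)]⟩
  exact mem_stab_point.2 ⟨t, (congrArg (fun n => n.1.2) ht).symm⟩

theorem stab_left {W : Submodule F V} (hW : (ofQuad Q).IsTS W) (h4 : finrank F W = 4) {y : V}
    (hy0 : y ≠ 0) (hy : ∀ z ∈ W, A.m y z = 0) {a b c : V ≃ₗ[F] V} (ht : (a, b, c) ∈ A.grp)
    (hc : c ∈ stabSub W) : b ∈ stabSub (F ∙ y) := by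
  obtain ⟨t, ht⟩ := (finrank_eq_one_iff_of_nonzero' (⟨(y, 0), fun z hz => ⟨by simp, hy z hz⟩⟩ :
    A.ann W) (by simpa [Subtype.ext_iff] using hy0)).1 (A.finrank_ann_eq_one h h8 hW h4) ⟨(b y, 0), fun z hz => by
      obtain ⟨z, rfl⟩ := c.surjective z
      simp [← ht.2.2.2, hy z ((hc z).2 hz)]⟩
  exact mem_stab_point.2 ⟨t, (congrArg (fun n => n.1.1) ht).symm⟩

theorem exists_point {W : Submodule F V} (hW : (ofQuad Q).IsTS W) (h4 : finrank F W = 4) :
    ∃ y, y ≠ 0 ∧ Q y = 0 ∧ ((∀ z ∈ W, A.m z y = 0) ∨ ∀ z ∈ W, A.m y z = 0) := by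
  obtain ⟨n, hn, hn0⟩ := Submodule.exists_mem_ne_zero_of_ne_bot (p := A.ann W) fun hc => by
    have := A.finrank_ann_eq_one h h8 hW h4
    rw [hc] at this
    simp at this
  obtain ⟨w, hw, hw0⟩ := Submodule.exists_mem_ne_zero_of_ne_bot (p := W)
    (by rintro rfl; simp at h4)
  by_cases h2 : n.2 = 0
  · refine ⟨n.1, fun hc => hn0 (Prod.ext hc h2), ?_, Or.inr fun z hz => (hn z hz).2⟩
    simpa [(hn w hw).2, hw0] using (A.sq_left h n.1 w).symm
  · refine ⟨n.2, h2, ?_, Or.inl fun z hz => (hn z hz).1⟩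
    simpa [(hn w hw).1, hw0] using (A.sq_right h n.2 w).symm

theorem isScal {G : Subgroup (V ≃ₗ[F] V)} (hG : PolarGrp (ofQuad Q) G) {a b c : V ≃ₗ[F] V}
    (ht : (a, b, c) ∈ A.grp) (hb : IsScal b) : IsScal c := by
  refine hG.exists_scalar (by omega) (FormSp.isSim_of_isom ht.2.2.1) fun p hp hq => ?_
  have hq' : Q p = 0 := hq
  have h1 : (ofQuad Q).IsTS (LinearMap.ker (A.m.flip p)) :=
    FormSp.isTS_of_q ⟨1, one_ne_zero⟩ fun z hz => by
      simpa [show A.m z p = 0 from hz, hp] using (A.sq_left h z p).symm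
  have h2 : (ofQuad Q).IsTS (LinearMap.range (A.m.flip p)) :=
    FormSp.isTS_of_q ⟨1, one_ne_zero⟩ (by rintro _ ⟨z, rfl⟩; simp [A.comp, hq'])
  have h3 := h1.two_mul_finrank_le h
  have h4 := h2.two_mul_finrank_le h
  have h5 := LinearMap.finrank_range_add_finrank_ker (A.m.flip p)
  exact mem_stab_point'.1 (A.stab_right h h8 h1 (by omega) hp (fun _ hz => hz) ht
    (hb.mem_stabSub _))

end Tri

theorem Tri.exists_triple {ι : Type} [Fintype ι] [DecidableEq ι] {Q : QuadraticForm F (ι → F)}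
    (A : Tri Q) (h : (ofQuad Q).Nondeg) {U : Submodule F (ι → F)} (hU : (ofQuad Q).IsTS U)
    (hU3 : 3 ≤ finrank F U) : ∀ a ∈ ⁅(ofQuad Q).isom, (ofQuad Q).isom⁆,
      ∃ b ∈ ⁅(ofQuad Q).isom, (ofQuad Q).isom⁆, ∃ c ∈ ⁅(ofQuad Q).isom, (ofQuad Q).isom⁆,
        (a, b, c) ∈ A.grp := fun a ha => by
  have h1 := commutator_le_of_Qx h hU hU3 (h.Qx_le_commutator (fun _ hc => hc) hU
    hU3 (G := A.grp.map (MonoidHom.fst _ _)) fun x hx g hg => by
      obtain ⟨u, hu, hg'⟩ := Qx_apply h hx hg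
      obtain ⟨b, c, ht⟩ := A.eich_mem h hx hu hg.1 hg'
      exact ⟨_, ht, rfl⟩) ha
  rw [← Subgroup.map_commutator] at h1
  obtain ⟨t, ht, rfl⟩ := h1
  have h2 : ∀ φ : _ →* ((ι → F) ≃ₗ[F] (ι → F)), A.grp.map φ ≤ (ofQuad Q).isom →
      φ t ∈ ⁅(ofQuad Q).isom, (ofQuad Q).isom⁆ :=
    fun φ hφ => Subgroup.commutator_mono hφ hφ (Subgroup.map_commutator _ _ φ ▸ ⟨t, ht, rfl⟩)
  exact ⟨_, h2 ((MonoidHom.fst _ _).comp (MonoidHom.snd _ _)) (by
    rintro _ ⟨t, ht, rfl⟩; exact ht.2.1), _, h2 ((MonoidHom.snd _ _).comp (MonoidHom.snd _ _))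
    (by rintro _ ⟨t, ht, rfl⟩; exact ht.2.2.1), Subgroup.commutator_le.2 (fun _ ha _ hb =>
      mul_mem (mul_mem (mul_mem ha hb) (inv_mem ha)) (inv_mem hb)) ht⟩

section index

variable {V : Type*} [AddCommGroup V] [Module F V] [FiniteDimensional F V] {Q : QuadraticForm F V}
  (A : Tri Q) {G : Subgroup (V ≃ₗ[F] V)} (hG : PolarGrp (ofQuad Q) G) (h8 : finrank F V = 8)
  (key : ∀ a ∈ G, ∃ b ∈ G, ∃ c ∈ G, (a, b, c) ∈ A.grp)

/-- The triality correspondence. -/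
def Tri.corr : Corr G G where
  r b c := b ∈ G ∧ c ∈ G ∧ ∃ a ∈ G, (a, b, c) ∈ A.grp
  one := ⟨one_mem _, one_mem _, 1, one_mem _, one_mem A.grp⟩
  mul := fun ⟨a1, a2, a, a3, a4⟩ ⟨b1, b2, b, b3, b4⟩ =>
    ⟨mul_mem a1 b1, mul_mem a2 b2, a * b, mul_mem a3 b3, mul_mem a4 b4⟩
  inv := fun ⟨a1, a2, a, a3, a4⟩ => ⟨inv_mem a1, inv_mem a2, a⁻¹, inv_mem a3, inv_mem a4⟩
  mem₁ h := h.1
  mem₂ h := h.2.1
  ex₁ b hb := by
    obtain ⟨c, hc, a, ha, ht⟩ := key b hb
    exact ⟨c, hb, hc, a, ha, A.cyc hG.nondeg (A.cyc hG.nondeg ht)⟩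
  ex₂ c hc := by
    obtain ⟨a, ha, b, hb, ht⟩ := key c hc
    exact ⟨b, hb, hc, a, ha, A.cyc hG.nondeg ht⟩
  scal := fun ⟨_, _, _, _, ht⟩ => ⟨A.isScal hG.nondeg h8 hG ht, fun hc =>
    A.isScal hG.nondeg h8 hG (A.cyc hG.nondeg (A.cyc hG.nondeg ht))
      (A.isScal hG.nondeg h8 hG (A.cyc hG.nondeg ht) hc)⟩

include hG h8 key in
theorem Tri.exists_aut (hZ : CenterScal G) : ∃ γ : MulAut (G ⧸ Subgroup.center G),
    γ * γ⁻¹⁻¹ = γ⁻¹ ∧ ∀ W, (ofQuad Q).IsTS W → finrank F W = 4 → ∃ y, y ≠ 0 ∧ Q y = 0 ∧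
      ((∀ b c, (Corr.ofEquiv hZ hZ γ).r b c → b ∈ stabSub W → c ∈ stabSub (F ∙ y)) ∨
      ∀ b c, (Corr.ofEquiv hZ hZ (γ⁻¹ : MulAut _)).r b c → b ∈ stabSub W →
        c ∈ stabSub (F ∙ y)) := by
  have h := hG.nondeg
  obtain ⟨γ, hγ⟩ := Corr.exists_equiv hZ hZ (A.corr hG h8 key)
  have hγ' : ∀ a b, (A.corr hG h8 key).symm.r a b →
      (Corr.ofEquiv hZ hZ (γ⁻¹ : MulAut _)).r a b := fun a b hab => by
    obtain ⟨hb, ha, h1⟩ := hγ b a hab
    exact ⟨ha, hb, by rw [← h1]; exact γ.symm_apply_apply _⟩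
  refine ⟨γ, ?_, fun W hW h4 => (A.exists_point h h8 hW h4).imp fun y hy => ⟨hy.1, hy.2.1,
    hy.2.2.imp
      (fun H => Corr.imp_ofEquiv hγ fun _ _ ⟨_, _, _, _, ht⟩ => A.stab_right h h8 hW h4 hy.1 H ht)
      fun H => Corr.imp_ofEquiv hγ' fun _ _ ⟨_, _, _, _, ht⟩ => A.stab_left h h8 hW h4 hy.1 H ht⟩⟩
  rw [inv_inv, eq_inv_iff_mul_eq_one]
  ext ⟨a⟩
  obtain ⟨b, hb, c, hc, ht⟩ := key a a.2
  obtain ⟨_, _, e1⟩ := hγ a b ⟨a.2, hb, c, hc, A.cyc h (A.cyc h ht)⟩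
  obtain ⟨_, _, e2⟩ := hγ b c ⟨hb, hc, a, a.2, ht⟩
  obtain ⟨_, _, e3⟩ := hγ c a ⟨hc, a.2, b, hb, A.cyc h ht⟩
  exact (congrArg (fun t => γ (γ t)) e1).trans ((congrArg γ e2).trans e3)

include h8 key in
theorem Tri.index [Finite F] (hR : Rich (ofQuad Q) G)
    (hN : ∀ T : (ofQuad Q).simGrp, ∀ g ∈ G, FormSp.conjSim T g ∈ G) {U : Submodule F V}
    (hU : (ofQuad Q).IsTS U) (hU4 : finrank F U = 4) : (FormSp.simAut hN).range.index = 3 := by
  obtain ⟨p, hp⟩ := CharP.exists F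
  have : Fact p.Prime := ⟨CharP.char_is_prime F p⟩
  have hZ := hR.toPolarGrp.centerScal hR.three_le
  obtain ⟨γ, h3, main⟩ := A.exists_aut hR.toPolarGrp h8 key hZ
  have hn : γ ∉ (FormSp.simAut hN).range := fun hc => by
    obtain ⟨y, hy, hq, H | H⟩ := main U hU hU4
    · have := hR.toPolarGrp.finrank_le_one_of_mem_range hZ _ hc hU hy hq H
      omega
    · have := hR.toPolarGrp.finrank_le_one_of_mem_range hZ _ (inv_mem hc) hU hy hq H
      omega
  refine index_eq_three (b := γ⁻¹) hn (by rwa [inv_mem_iff]) (by rwa [h3, inv_mem_iff]) fun e => ?_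
  obtain ⟨x, hx, hq⟩ := hR.exists_sing
  obtain h1 | ⟨W, hW, h1, -, ⟨h2, h3⟩ | ⟨-, h2, -⟩⟩ := hR.mem_range_or hZ hN p e hx hq
  · exact Or.inl h1
  · obtain ⟨w, a1, a2, a3⟩ := hR.nondeg.exists_singular_perp (Z := W) hU (by omega)
    exact absurd (h3 w a1 a2) a3
  · obtain ⟨y, hy, hqy, H⟩ := main W hW (by omega)
    exact Or.inr (H.imp (fun H => hR.mem_range_simAut hZ _ (hR.toPolarGrp.rel_mul hZ hx hq hy hqy
      (fun a b hab => (h1 a b hab).1) H)) fun H => hR.mem_range_simAut hZ _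
        (hR.toPolarGrp.rel_mul hZ hx hq hy hqy (fun a b hab => (h1 a b hab).1) H))

end index

/-- The para-octonion product (Zorn vector matrices). -/
def zorn (x y : Fin 4 ⊕ Fin 4 → F) : Fin 4 ⊕ Fin 4 → F :=
  Sum.elim ![x (.inr 0) * y (.inr 0) - x (.inl 1) * y (.inr 1) - x (.inl 2) * y (.inr 2) -
      x (.inl 3) * y (.inr 3),
    -x (.inr 0) * y (.inl 1) - y (.inl 0) * x (.inl 1) -
      (x (.inr 2) * y (.inr 3) - x (.inr 3) * y (.inr 2)),
    -x (.inr 0) * y (.inl 2) - y (.inl 0) * x (.inl 2) -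
      (x (.inr 3) * y (.inr 1) - x (.inr 1) * y (.inr 3)),
    -x (.inr 0) * y (.inl 3) - y (.inl 0) * x (.inl 3) -
      (x (.inr 1) * y (.inr 2) - x (.inr 2) * y (.inr 1))]
    ![x (.inl 0) * y (.inl 0) - x (.inr 1) * y (.inl 1) - x (.inr 2) * y (.inl 2) -
      x (.inr 3) * y (.inl 3),
    -y (.inr 0) * x (.inr 1) - x (.inl 0) * y (.inr 1) -
      (x (.inl 2) * y (.inl 3) - x (.inl 3) * y (.inl 2)),
    -y (.inr 0) * x (.inr 2) - x (.inl 0) * y (.inr 2) -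
      (x (.inl 3) * y (.inl 1) - x (.inl 1) * y (.inl 3)),
    -y (.inr 0) * x (.inr 3) - x (.inl 0) * y (.inr 3) -
      (x (.inl 1) * y (.inl 2) - x (.inl 2) * y (.inl 1))]

/-- The para-octonion algebra. -/
def zornTri (F : Type*) [Field F] : Tri (H3.QPlus 4 F) where
  m := LinearMap.mk₂ F zorn
    (fun _ _ _ => by ext (i | i) <;> fin_cases i <;> simp [zorn] <;> ring)
    (fun _ _ _ => by ext (i | i) <;> fin_cases i <;> simp [zorn] <;> ring)
    (fun _ _ _ => by ext (i | i) <;> fin_cases i <;> simp [zorn] <;> ring)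
    (fun _ _ _ => by ext (i | i) <;> fin_cases i <;> simp [zorn] <;> ring)
  comp x y := by simp [H3.QPlus_apply, Fin.sum_univ_four, zorn]; ring
  assoc x y z := by simp [H3.polar_QPlus, Fin.sum_univ_four, zorn]; ring

theorem card_mulAut_pomega_plus [Fintype F] (p f : ℕ) [Fact p.Prime]
    (hF : Fintype.card F = p ^ f) (m : ℕ) (hm : 4 ≤ m) :
    Nat.card (MulAut (Cfsg.POmega F (Cfsg.quadFormPlus m F))) = (if m = 4 then 3 else 1) *
      (if p = 2 then 2 else (if Even (m * (p ^ f - 1) / 2) then 8 else 4)) * f *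
        Nat.card (Cfsg.POmega F (Cfsg.quadFormPlus m F)) := by
  refine card_mulAut_pomega_plus_of_index p f hF m (by omega) ?_
  split_ifs with h
  · subst h
    obtain ⟨U, hU, hU4⟩ := QPlus_exists_TS (F := F) 4
    exact (zornTri F).index (by simp) ((zornTri F).exists_triple QPlus_nondeg hU (by omega))
      (quad_rich QPlus_nondeg hU (by omega)) _ hU hU4
  · exact QPlus_index (by omega)

end Cfsg.H2
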